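import Mathlib
import Cfsg.Agent.Lib.AltGL.Lin

/-!
Modules on which lifts of 3-cycles act without fixed vectors.
-/

set_option autoImplicit false

namespace H5.AE

open Module H82.AG

variable {k W : Type*} [Field k] [AddCommGroup W] [Module k W]

lemma inv_rel {R : Type*} [Ring R] {a b c : R} (ha : a * a + a + 1 = 0) (hb : b * b + b + 1 = 0)
    (e : (a * b) * (a * b) = c) : a * b = c * ((1 + b) * (1 + a)) := by
  have h1 : a * (1 + a) = -1 := by rw [← sub_eq_zero, ← ha]; noncomm_ring
  have h2 : b * (1 + b) = -1 := by rw [← sub_eq_zero, ← hb]; noncomm_ring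
  calc a * b = a * b * (a * (b * (1 + b)) * (1 + a)) := by rw [h2, mul_neg_one, neg_mul, h1]; simp
    _ = _ := by rw [← e]; noncomm_ring

theorem clf_plus (h2 : (2 : k) ≠ 0) (h3 : (3 : k) ≠ 0) (a : Fin 3 → End k W) (h : ∀ i, a i * a i + a i + 1 = 0)
    (e : ∀ i j, i ≠ j → (a i * a j) * (a i * a j) = 1) : Subsingleton W := by
  have h4 : ∀ i j, i ≠ j → a j = -1 - a i := fun i j hij => by
    have e1 := inv_rel (h i) (h j) (e i j hij)
    have e2 := inv_rel (h j) (h i) (e j i hij.symm)
    have : (2 : k) • (1 + a i + a j) = 0 := by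
      rw [two_smul, ← sub_self (a i * a j + a j * a i)]
      nth_rw 1 [e1, e2]
      noncomm_ring
    have := (smul_eq_zero.1 this).resolve_left h2
    rw [← sub_eq_zero, ← this]; abel
  have h5 : a 0 = -1 - a 0 := by
    have e1 := h4 1 2 (by decide)
    rw [h4 0 1 (by decide), h4 0 2 (by decide)] at e1
    rw [e1]; abel
  have h6 : (3 : k) • (1 : End k W) = 0 := by
    have e1 : (2 * a 0 + 1) = 0 := by rw [two_mul]; nth_rw 1 [h5]; abel
    have e2 : (2 * a 0 + 1) * (2 * a 0 + 1) = 4 * (a 0 * a 0 + a 0 + 1) - 3 * 1 := by noncomm_ring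
    rw [e1, h 0, mul_zero, mul_zero, zero_sub, eq_comm, neg_eq_zero] at e2
    rw [← e2, Algebra.smul_def, map_ofNat]
  exact ⟨fun x y => by
    have := (smul_eq_zero.1 h6).resolve_left h3
    rw [← End.one_apply (R := k) x, ← End.one_apply (R := k) y, this]; rfl⟩

theorem clf_anti [IsAlgClosed k] [FiniteDimensional k W] [Nontrivial W] (h2 : (2 : k) ≠ 0) (c : Fin 10 → End k W)
    (s : Fin 10 → k) (hs : ∀ i, s i ≠ 0) (h : ∀ i, c i * c i = s i • 1) (e : ∀ i j, i ≠ j → c i * c j = -(c j * c i)) :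
    32 ≤ finrank k W := by
  let u : Fin 5 → Fin 10 := fun i => ⟨2 * i, by omega⟩
  let v : Fin 5 → Fin 10 := fun i => ⟨2 * i + 1, by omega⟩
  let d : Fin 5 → End k W := fun i => c (u i) * c (v i)
  have a1 : ∀ i j, u i ≠ v j := fun i j h => by simp only [u, v, Fin.mk.injEq] at h; omega
  have a2 : ∀ (i : Fin 5) j, j ≠ u i → j ≠ v i → d i * c j = c j * d i := fun i j h1 h3 => by
    simp only [d]
    rw [mul_assoc, e _ _ h3.symm, mul_neg, ← mul_assoc, e _ _ h1.symm, neg_mul, neg_neg, mul_assoc]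
  have a3 : ∀ i, d i * c (u i) = -(c (u i) * d i) := fun i => by
    simp only [d]
    rw [mul_assoc, e _ _ (a1 i i).symm, mul_neg]
  have a4 : ∀ i j, i ≠ j → u i ≠ u j := fun i j h1 h => by simp only [u, Fin.mk.injEq] at h; omega
  have a5 : ∀ i j, i ≠ j → v i ≠ v j := fun i j h1 h => by simp only [v, Fin.mk.injEq] at h; omega
  have hinj : ∀ i x, c i x = 0 → x = 0 := fun i x hx => by
    have := LinearMap.congr_fun (h i) x
    rw [End.mul_apply, hx, map_zero, eq_comm] at this
    exact (smul_eq_zero.1 this).resolve_left (hs i)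
  obtain ⟨χ, hχ⟩ := exists_wt d fun i j => by
    by_cases h1 : i = j
    · rw [h1]
    · change d i * (c (u j) * c (v j)) = c (u j) * c (v j) * d i
      rw [← mul_assoc, a2 i _ (a4 j i (Ne.symm h1)) (a1 j i), mul_assoc, a2 i _ (a1 i j).symm (a5 j i (Ne.symm h1)),
        mul_assoc]
  have h0 : ∀ i, χ i ≠ 0 := fun i h1 => by
    obtain ⟨x, hx, h3⟩ := hχ
    exact hx (hinj _ _ (hinj (u i) _ ((h3 i).trans (by rw [h1, zero_smul]))))
  have key : ∀ S : Finset (Fin 5), Wt d fun i => if i ∈ S then -χ i else χ i := fun S => by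
    induction S using Finset.induction_on with
    | empty => simpa using hχ
    | insert j S hj ih =>
      obtain ⟨x, hx, h3⟩ := ih
      refine ⟨c (u j) x, fun h4 => hx (hinj _ _ h4), fun i => ?_⟩
      rw [← End.mul_apply]
      by_cases h1 : i = j
      · subst h1
        simp [a3, h3, hj]
      · rw [a2 i _ (a4 j i (Ne.symm h1)) (a1 j i), End.mul_apply, h3, map_smul]
        simp only [Finset.mem_insert, h1, false_or]
  have := card_le_of_wt d _ key fun S T h1 => Finset.ext fun i => by
    have h3 := congrFun h1 i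
    have h4 : -χ i ≠ χ i := fun h5 => h0 i ((mul_eq_zero.1 (show 2 * χ i = 0 by linear_combination -h5)).resolve_left h2)
    by_cases b1 : i ∈ S <;> by_cases b2 : i ∈ T <;> simp only [b1, b2, if_true, if_false] at h3 ⊢
    exacts [absurd h3 h4, absurd h3.symm h4]
  simpa using this

theorem clf_minus [IsAlgClosed k] [FiniteDimensional k W] [Nontrivial W] (h2 : (2 : k) ≠ 0) (h3 : (3 : k) ≠ 0)
    (a : Fin 10 → End k W) (h : ∀ i, a i * a i + a i + 1 = 0)
    (e : ∀ i j, i ≠ j → (a i * a j) * (a i * a j) = -1) : 32 ≤ finrank k W := by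
  let B : LinearMap.BilinForm k (Fin 10 → k) := Matrix.toBilin' (Matrix.of fun i j => if i = j then -6 else -2)
  let Φ : (Fin 10 → k) →ₗ[k] End k W := Fintype.linearCombination k fun i => 2 * a i + 1
  have hB : ∀ x y, B x y = -4 * ∑ i, x i * y i - 2 * ((∑ i, x i) * ∑ i, y i) := fun x y => by
    rw [Finset.sum_mul_sum]
    simp only [B, Matrix.toBilin'_apply, Matrix.of_apply, Finset.mul_sum, ← Finset.sum_sub_distrib]
    refine Finset.sum_congr rfl fun i _ => ?_
    rw [Finset.sum_congr rfl (g := fun j => (if i = j then -4 * (x i * y j) else 0) - 2 * (x i * y j)) fun j _ => by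
      split_ifs <;> ring]
    simp
  have hΦ : ∀ x y, Φ x * Φ y + Φ y * Φ x = B x y • 1 := fun x y => by
    have h4 : ∀ i j, (2 * a i + 1) * (2 * a j + 1) + (2 * a j + 1) * (2 * a i + 1) =
        (if i = j then -6 else -2 : k) • (1 : End k W) := fun i j => by
      split_ifs with h5
      · subst h5
        rw [show (2 * a i + 1) * (2 * a i + 1) + (2 * a i + 1) * (2 * a i + 1) = 8 * (a i * a i + a i + 1) - 6 * 1 by
          noncomm_ring, h, Algebra.smul_def, map_neg, map_ofNat]
        simp
      · rw [show (2 * a i + 1) * (2 * a j + 1) + (2 * a j + 1) * (2 * a i + 1) =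
          4 * (a i * a j - -1 * ((1 + a j) * (1 + a i))) - 2 * 1 by noncomm_ring,
          ← inv_rel (h i) (h j) (e i j h5), Algebra.smul_def, map_neg, map_ofNat]
        simp
    simp only [Φ, B, Fintype.linearCombination_apply, Finset.sum_mul_sum, Matrix.toBilin'_apply, Matrix.of_apply,
      Finset.sum_smul]
    rw [Finset.sum_comm (f := fun i j => y i • _ * x j • _), ← Finset.sum_add_distrib]
    refine Finset.sum_congr rfl fun i _ => ?_
    rw [← Finset.sum_add_distrib]
    refine Finset.sum_congr rfl fun j _ => ?_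
    rw [smul_mul_smul_comm, smul_mul_smul_comm, mul_comm (y j), ← smul_add, h4, smul_smul]
    congr 1; ring
  have := invertibleOfNonzero h2
  have hs : B.IsSymm := ⟨fun x y => by simp [hB, mul_comm]⟩
  obtain ⟨v, hv⟩ := LinearMap.BilinForm.exists_orthogonal_basis (LinearMap.BilinForm.isSymm_iff.1 hs)
  have h4 : (4 : k) ≠ 0 := by rw [show (4 : k) = 2 * 2 by norm_num]; exact mul_ne_zero h2 h2
  have hn : ∀ x, (∀ y, B x y = 0) → x = 0 := fun x hx => by
    have h5 : ∀ i, -4 * x i - 2 * ∑ i, x i = 0 := fun i => by simpa [hB, Pi.single_apply] using hx (Pi.single i 1)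
    have h6 : ∑ i, x i = 0 := by
      have := Finset.sum_congr (s₁ := Finset.univ) rfl fun i _ => h5 i
      simp only [Finset.sum_sub_distrib, ← Finset.mul_sum, Finset.sum_const, Finset.card_univ, Fintype.card_fin,
        nsmul_eq_mul, mul_zero] at this
      exact (mul_eq_zero.1 (show (4 * 2 * 3) * ∑ i, x i = 0 by push_cast at this; linear_combination -this)).resolve_left
        (mul_ne_zero (mul_ne_zero h4 h2) h3)
    funext i
    exact (mul_eq_zero.1 (show 4 * x i = 0 by linear_combination -h5 i - 2 * h6)).resolve_left h4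
  let f : Fin 10 → Fin (finrank k (Fin 10 → k)) := Fin.cast (by simp)
  refine clf_anti h2 (fun i => Φ (v (f i))) (fun i => B (v (f i)) (v (f i)) / 2) (fun i => div_ne_zero (fun h5 => ?_) h2)
    (fun i => ?_) fun i j hij => ?_
  · refine v.ne_zero (f i) (hn _ fun y => ?_)
    refine LinearMap.congr_fun (v.ext (f₁ := B (v (f i))) (f₂ := 0) fun j => ?_) y
    by_cases h6 : f i = j
    · exact h6 ▸ h5
    · exact hv h6
  · rw [div_eq_inv_mul, mul_smul, ← hΦ, ← two_smul k, smul_smul, inv_mul_cancel₀ h2, one_smul]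
  · rw [eq_neg_iff_add_eq_zero, hΦ, show B (v (f i)) (v (f j)) = 0 from hv fun h5 => hij (Fin.cast_injective _ h5),
      zero_smul]

end H5.AE
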