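import Mathlib
import Cfsg.Agent.Lib.AltGL.Main

/-!
Alternating sections of groups of type `E₆`: the data extracted from the 27-dimensional module.
-/

set_option autoImplicit false

namespace H5.AE

open Module Polynomial

/-- The weights of the 27-dimensional module on the simple coroots. -/
def wt : Fin 27 → Fin 6 → ℤ :=
  ![![0, 0, 0, 0, 0, -1], ![0, 0, 0, 0, -1, 1], ![0, 0, 0, -1, 1, 0], ![0, -1, -1, 1, 0, 0], ![-1, -1, 1, 0, 0, 0],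
    ![0, 1, -1, 0, 0, 0], ![-1, 1, 1, -1, 0, 0], ![-1, 0, 0, 1, -1, 0], ![-1, 0, 0, 0, 1, -1], ![-1, 0, 0, 0, 0, 1],
    ![1, -1, 0, 0, 0, 0], ![1, 1, 0, -1, 0, 0], ![1, 0, -1, 1, -1, 0], ![1, 0, -1, 0, 1, -1], ![1, 0, -1, 0, 0, 1],
    ![0, 0, 1, 0, -1, 0], ![0, 0, 1, -1, 1, -1], ![0, 0, 1, -1, 0, 1], ![0, -1, 0, 1, 0, -1], ![0, -1, 0, 1, -1, 1],
    ![0, -1, 0, 0, 1, 0], ![0, 1, 0, 0, 0, -1], ![0, 1, 0, 0, -1, 1], ![0, 1, 0, -1, 1, 0], ![0, 0, -1, 1, 0, 0],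
    ![-1, 0, 1, 0, 0, 0], ![1, 0, 0, 0, 0, 0]]

/-- The characteristic polynomial of a torus element. -/
noncomputable def cpT {k : Type*} [Field k] (c : Fin 6 → kˣ) : k[X] :=
  ∏ i, (X - C ((∏ j, c j ^ wt i j : kˣ) : k))

/-- A representation of degree 27 with the eigenvalues and ranks of a subgroup of `E₆` in characteristic `p`. -/
structure R27 (p : ℕ) {k V H : Type*} [Field k] [AddCommGroup V] [Module k V] [FiniteDimensional k V] [Group H]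
    (ρ : H →* End k V) : Prop where
  dim : finrank k V = 27
  eig : ∀ r : ℕ, r.Prime → r ≠ p → ∀ t : H, t ^ r = 1 → t ≠ 1 →
    ∃ c : Fin 6 → kˣ, c ≠ 1 ∧ c ^ r = 1 ∧ (ρ t).charpoly = cpT c
  rk : ∀ l : ℕ, l.Prime → l ≠ p → l ≠ 2 → ∀ E : Subgroup H, (∀ a ∈ E, ∀ b ∈ E, a * b = b * a) →
    (∀ a ∈ E, a ^ l = 1) → Nat.card E ≤ l ^ 9

end H5.AE
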