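import Mathlib
import Cfsg.Agent.Lib.AltE6.Def
import Cfsg.Agent.Lib.Chev.RootSys

/-!
Eigenvalues of elements of order 2, 3, 11 on the 27-dimensional module.
-/

set_option autoImplicit false
set_option linter.unusedSectionVars false

namespace H5.AE

open Module Polynomial H82.AG H38

section Lin

variable {k V : Type*} [Field k] [AddCommGroup V] [Module k V] [FiniteDimensional k V]

/-- A basis of common eigenvectors. -/
theorem exists_basis [IsAlgClosed k] {A : Type*} (x : A → End k V) (hc : ∀ a b, Commute (x a) (x b)) {N : ℕ}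
    (hN : (N : k) ≠ 0) (hx : ∀ a, x a ^ N = 1) : ∃ (b : Basis (Fin (finrank k V)) k V)
      (χ : Fin (finrank k V) → A → k), ∀ i a, x a (b i) = χ i a • b i := by
  let S : Set V := {v | ∃ χ : A → k, ∀ a, x a v = χ a • v}
  have hS : ⊤ ≤ Submodule.span k S := by
    obtain ⟨C, hC⟩ := (Submodule.span k S).exists_isCompl
    have h := eq_zero_of_wt x hc hN hx (C.subtype ∘ₗ C.projectionOnto _ hC.symm) fun χ v hv => by
      rw [LinearMap.comp_apply, (Submodule.projectionOnto_apply_eq_zero_iff hC.symm).2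
        (Submodule.subset_span ⟨χ, hv⟩), map_zero]
    intro v _
    exact (Submodule.projectionOnto_apply_eq_zero_iff hC.symm).1 (Subtype.ext (LinearMap.congr_fun h v))
  let b := Basis.ofSpan hS
  have := Finite.finite_basis b
  have := Fintype.ofFinite ((linearIndepOn_empty k id).extend (Set.empty_subset S))
  let e := b.indexEquiv (finBasis k V)
  have h : ∀ i, (b.reindex e) i ∈ S := fun i => by
    rw [Basis.reindex_apply]; exact Basis.ofSpan_subset hS ⟨_, rfl⟩
  choose χ hχ using h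
  exact ⟨_, χ, hχ⟩

/-- Dimensions of weight spaces. -/
theorem finrank_wt {ι A : Type*} [Fintype ι] {x : A → End k V} {b : Basis ι k V} {χ : ι → A → k}
    (h : ∀ i a, x a (b i) = χ i a • b i) (U : Submodule k V) (S : Set A) (μ : A → k)
    (hU : ∀ v, v ∈ U ↔ ∀ a ∈ S, x a v = μ a • v) : finrank k U = Nat.card {i | ∀ a ∈ S, χ i a = μ a} := by
  classical
  have h1 : ∀ a v i, b.repr (x a v) i = χ i a * b.repr v i := fun a v i =>
    LinearMap.congr_fun (b.ext (f₁ := b.coord i ∘ₗ x a) (f₂ := χ i a • b.coord i) fun j => by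
      by_cases e : j = i <;> simp [h, e]) v
  have h2 : U = Submodule.span k (Set.range (b ∘ (Subtype.val : {i | ∀ a ∈ S, χ i a = μ a} → ι))) := by
    rw [Set.range_comp, Subtype.range_coe]
    refine le_antisymm (fun v hv => ?_) (Submodule.span_le.2 ?_)
    · rw [b.mem_span_image]
      intro i hi a ha
      have := h1 a v i
      rw [(hU v).1 hv a ha, map_smul, Finsupp.smul_apply, smul_eq_mul] at this
      exact (mul_right_cancel₀ (Finsupp.mem_support_iff.1 hi) this).symm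
    · rintro _ ⟨i, hi, rfl⟩
      exact (hU _).2 fun a ha => by rw [h, hi a ha]
  rw [h2, finrank_span_eq_card (b.linearIndependent.comp _ Subtype.val_injective), Nat.card_eq_fintype_card]

theorem finrank_eig {f : End k V} {N : ℕ} (hN : (N : k) ≠ 0) (hf : f ^ N = 1) (μ : k) :
    finrank k (f.eigenspace μ) = f.charpoly.rootMultiplicity μ := by
  rw [← LinearMap.finrank_maxGenEigenspace_eq,
    (H63.CrossChar.isSemisimple_of_pow_eq_one hN hf).isFinitelySemisimple.maxGenEigenspace_eq_eigenspace μ]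

end Lin

/-- The exponents of the eigenvalues, `m` standing for `-1`. -/
def LL (m a b c d e f : ℕ) : List ℕ :=
  [m * f, m * e + f, m * d + e, m * (b + c) + d, m * (a + b) + c, m * c + b, m * (a + d) + (b + c), m * (a + e) + d,
    m * (a + f) + e, m * a + f, m * b + a, m * d + (a + b), m * (c + e) + (a + d), m * (c + f) + (a + e),
    m * c + (a + f), m * e + c, m * (d + f) + (c + e), m * d + (c + f), m * (b + f) + d, m * (b + e) + (d + f),
    m * b + e, m * f + b, m * e + (b + f), m * d + (b + e), m * c + d, m * a + c, a]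

/-- The number of exponents in a residue class. -/
def cnt (r s : ℕ) (L : List ℕ) : ℕ := L.countP fun x => x % r == s

lemma cpT_eq {k : Type*} [Field k] (ζ : kˣ) (m : ℕ) (h : ζ ^ (m + 1) = 1) (n : Fin 6 → ℕ) :
    cpT (fun j => ζ ^ n j) = (((LL m (n 0) (n 1) (n 2) (n 3) (n 4) (n 5)).map fun x => (ζ : k) ^ x).map
      fun y => X - C y).prod := by
  have hm : ζ ^ m = ζ⁻¹ := eq_inv_of_mul_eq_one_left (by rw [← pow_succ, h])
  have : List.ofFn (fun i => ∏ j, (ζ ^ n j) ^ wt i j) =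
      (LL m (n 0) (n 1) (n 2) (n 3) (n 4) (n 5)).map fun x => ζ ^ x := by
    simp only [LL, List.map_cons, List.map_nil, pow_add, pow_mul, hm, inv_pow]
    simp [List.ofFn_succ, Fin.prod_univ_succ, wt]
    and_intros <;> exact Units.ext (by push_cast; ring)
  rw [cpT, ← List.prod_ofFn]
  have h2 := congrArg (List.map fun y : kˣ => X - C (y : k)) this
  rw [List.map_ofFn, List.map_map] at h2
  rw [List.map_map]
  exact congrArg List.prod (h2.trans (by simp [Function.comp_def]))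

lemma mult_cpT {k : Type*} [Field k] {ζ : kˣ} {m : ℕ} (h : IsPrimitiveRoot ζ (m + 1)) (n : Fin 6 → ℕ) {s : ℕ}
    (hs : s < m + 1) : (cpT fun j => ζ ^ n j).rootMultiplicity ((ζ : k) ^ s) =
      cnt (m + 1) s (LL m (n 0) (n 1) (n 2) (n 3) (n 4) (n 5)) := by
  classical
  have h' := IsPrimitiveRoot.coe_units_iff.2 h
  rw [cpT_eq ζ m h.pow_eq_one, ← count_roots, ← Multiset.prod_coe, ← Multiset.map_coe, roots_multiset_prod_X_sub_C,
    Multiset.coe_count, List.count_eq_countP, List.countP_map, cnt]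
  refine List.countP_congr fun x _ => ?_
  simp only [Function.comp_apply, beq_iff_eq]
  rw [← pow_mod_orderOf, ← h'.eq_orderOf]
  exact ⟨fun e => h'.pow_inj (Nat.mod_lt _ (by omega)) hs e, fun e => by rw [e]⟩

lemma sum_cnt (r : ℕ) (hr : 0 < r) (g : ℕ → ℕ) (L : List ℕ) :
    (L.map fun x => g (x % r)).sum = ∑ s ∈ Finset.range r, cnt r s L * g s := by
  induction L with
  | nil => simp [cnt]
  | cons x L ih =>
    simp only [cnt, List.map_cons, List.sum_cons, List.countP_cons, add_mul, Finset.sum_add_distrib] at ih ⊢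
    rw [ih, add_comm]
    simp [Nat.mod_lt x hr]

set_option synthInstance.maxSize 2000 in
set_option synthInstance.maxHeartbeats 200000 in
lemma chk2 : ∀ a < 2, ∀ b < 2, ∀ c < 2, ∀ d < 2, ∀ e < 2, ∀ f < 2, a + b + c + d + e + f ≠ 0 →
    cnt 2 1 (LL 1 a b c d e f) = 12 ∨ cnt 2 1 (LL 1 a b c d e f) = 16 := by decide +kernel

set_option synthInstance.maxSize 2000 in
set_option synthInstance.maxHeartbeats 200000 in
lemma chk3 : ∀ a < 3, ∀ b < 3, ∀ c < 3, ∀ d < 3, ∀ e < 3, ∀ f < 3, a + b + c + d + e + f ≠ 0 →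
    cnt 3 1 (LL 2 a b c d e f) = cnt 3 2 (LL 2 a b c d e f) →
    cnt 3 1 (LL 2 a b c d e f) = 6 ∨ cnt 3 1 (LL 2 a b c d e f) = 9 := by decide +kernel

/-- The invariant quadratic form modulo eleven. -/
def qq (a b c d e f : ℕ) : ℕ := Nat.add (Nat.add (Nat.add (Nat.mul a (Nat.add a (Nat.mul 10 c)))
  (Nat.mul b (Nat.add b (Nat.mul 10 d)))) (Nat.add (Nat.mul c (Nat.add c (Nat.mul 10 d)))
    (Nat.mul d (Nat.add d (Nat.mul 10 e))))) (Nat.add (Nat.mul e (Nat.add e (Nat.mul 10 f))) (Nat.mul f f))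

/-- Digits of a histogram. -/
def hg (s : ℕ) : ℕ := Nat.shiftRight (Nat.shiftLeft 1 (Nat.mul 5 s)) 1

/-- The test for elements of order eleven. -/
def good (a b c d e f : ℕ) : Bool := cond (Nat.beq (Nat.mod (qq a b c d e f) 11) 0)
  (Nat.ble 1 (Nat.mod ((LL 10 a b c d e f).map fun x => hg (x % 11)).sum 581109629338128)) true

lemma chk11 : (allLt 11 fun f => allLt 11 fun e => allLt 11 fun d => allLt 11 fun c => allLt 11 fun b =>
    good 1 b c d e f) = true := by decide +kernel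

lemma chk11' : ((allLt 11 fun f => allLt 11 fun e => allLt 11 fun d => (allLt 11 fun c => good 0 1 c d e f) &&
    good 0 0 1 d e f && good 0 0 0 1 e f && good 0 0 0 0 1 f) && good 0 0 0 0 0 1) = true := by decide +kernel

lemma not_good {a b c d e f : ℕ} (h : ∀ s < 11, cnt 11 s (LL 10 a b c d e f) ≤ cnt 11 (2 * s % 11) (LL 10 a b c d e f)) :
    good a b c d e f ≠ true := by
  have h1 := sum_cnt 11 (by decide) (· ^ 2) (LL 10 a b c d e f)
  have h2 := sum_cnt 11 (by decide) hg (LL 10 a b c d e f)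
  have h3 : ∀ L : List ℕ, (L.map fun x => (x % 11) ^ 2).sum ≡ (L.map (· ^ 2)).sum [MOD 11] := fun L => by
    induction L with
    | nil => rfl
    | cons x L ih => exact ((Nat.mod_modEq x 11).pow 2).add ih
  have h4 : ((LL 10 a b c d e f).map (· ^ 2)).sum = qq a b c d e f + 11 * (55 * a * a + 22 * a * b + 10 * a * c +
      22 * a * d + 22 * a * e + 22 * a * f + 55 * b * b + 22 * b * c + 10 * b * d + 22 * b * e + 22 * b * f +
      55 * c * c + 10 * c * d + 22 * c * e + 22 * c * f + 55 * d * d + 10 * d * e + 22 * d * f + 55 * e * e +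
      10 * e * f + 55 * f * f) := by
    simp only [LL, List.map_cons, List.map_nil, List.sum_cons, List.sum_nil, qq, Nat.add_eq, Nat.mul_eq]
    ring
  have h5 := h3 (LL 10 a b c d e f)
  rw [h1, h4, Nat.ModEq, Nat.add_mul_mod_self_left] at h5
  have h0 : ∀ s < 10, cnt 11 (s + 1) (LL 10 a b c d e f) = cnt 11 1 (LL 10 a b c d e f) := by
    have a1 := h 1 (by decide); have a2 := h 2 (by decide); have a3 := h 3 (by decide); have a4 := h 4 (by decide)
    have a5 := h 5 (by decide); have a6 := h 6 (by decide); have a7 := h 7 (by decide); have a8 := h 8 (by decide)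
    have a9 := h 9 (by decide); have a10 := h 10 (by decide)
    generalize LL 10 a b c d e f = L at *
    norm_num at a1 a2 a3 a4 a5 a6 a7 a8 a9 a10
    intro s hs
    interval_cases s <;> norm_num <;> omega
  have h8 : ∀ g : ℕ → ℕ, g 0 = 0 → ∑ s ∈ Finset.range 11, cnt 11 s (LL 10 a b c d e f) * g s =
      (∑ s ∈ Finset.range 10, g (s + 1)) * cnt 11 1 (LL 10 a b c d e f) := fun g hg => by
    rw [Finset.sum_range_succ', hg, mul_zero, add_zero, Finset.sum_mul]
    exact Finset.sum_congr rfl fun s hs => by rw [h0 s (Finset.mem_range.1 hs), mul_comm]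
  have h6 : Nat.mod (qq a b c d e f) 11 = 0 := by
    refine h5.symm.trans ?_
    rw [h8 _ rfl, show ∑ s ∈ Finset.range 10, (s + 1) ^ 2 = 11 * 35 from rfl, mul_assoc, Nat.mul_mod_right]
  have h7 : Nat.mod ((LL 10 a b c d e f).map fun x => hg (x % 11)).sum 581109629338128 = 0 := by
    rw [h2, h8 _ rfl, show ∑ s ∈ Finset.range 10, hg (s + 1) = 581109629338128 by decide +kernel]
    exact Nat.mul_mod_right _ _
  rw [good, h6, h7]
  decide

variable {p : ℕ} [Fact p.Prime] {k V : Type*} [Field k] [IsAlgClosed k] [CharP k p] [AddCommGroup V] [Module k V]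
  [FiniteDimensional k V] {H : Type*} [Group H] {ρ : H →* End k V}

lemma cast_ne {r : ℕ} (hr : r.Prime) (hp : p ≠ r) : (r : k) ≠ 0 := fun e =>
  hp ((Nat.prime_dvd_prime_iff_eq Fact.out hr).1 ((CharP.cast_eq_zero_iff k p r).1 e))

lemma exists_exp {m : ℕ} {ζ : kˣ} (hζ : IsPrimitiveRoot ζ (m + 1)) {c : Fin 6 → kˣ} (hc : c ^ (m + 1) = 1) :
    ∃ n : Fin 6 → ℕ, (∀ j, n j < m + 1) ∧ c = fun j => ζ ^ n j := by
  choose n h1 h2 using fun j => hζ.eq_pow_of_mem_rootsOfUnity (ξ := c j) (congrFun hc j)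
  exact ⟨n, h1, funext fun j => (h2 j).symm⟩

theorem R27.ex (hR : R27 p ρ) {m : ℕ} (hr : (m + 1).Prime) (hp : p ≠ m + 1) {t : H} (h : t ^ (m + 1) = 1) (h1 : t ≠ 1)
    {ζ : kˣ} (hζ : IsPrimitiveRoot ζ (m + 1)) : ∃ n : Fin 6 → ℕ, (∀ j, n j < m + 1) ∧
      n 0 + n 1 + n 2 + n 3 + n 4 + n 5 ≠ 0 ∧ ∀ s < m + 1, finrank k ((ρ t).eigenspace ((ζ : k) ^ s)) =
        cnt (m + 1) s (LL m (n 0) (n 1) (n 2) (n 3) (n 4) (n 5)) := by
  obtain ⟨c, a1, a2, a3⟩ := hR.eig _ hr hp.symm t h h1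
  obtain ⟨n, b1, rfl⟩ := exists_exp hζ a2
  refine ⟨n, b1, fun e => a1 (funext fun j => ?_), fun s hs => ?_⟩
  · have : n j = 0 := by fin_cases j <;> simp <;> omega
    simp [this]
  · rw [finrank_eig (cast_ne hr hp) (by rw [← map_pow, h, map_one]), a3, mult_cpT hζ n hs]

theorem R27.g1 (hR : R27 p ρ) (hp : p ≠ 2) {t : H} (h : t ^ 2 = 1) (h1 : t ≠ 1) :
    finrank k ((ρ t).eigenspace (-1)) = 12 ∨ finrank k ((ρ t).eigenspace (-1)) = 16 := by
  obtain ⟨n, a1, a2, a3⟩ := hR.ex (m := 1) Nat.prime_two hp h h1 (ζ := -1)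
    (IsPrimitiveRoot.coe_units_iff.1 (IsPrimitiveRoot.neg_one p hp))
  have := a3 1 (by decide)
  rw [pow_one] at this
  exact this ▸ chk2 _ (a1 0) _ (a1 1) _ (a1 2) _ (a1 3) _ (a1 4) _ (a1 5) a2

lemma eig_le_conj (ρ : H →* End k V) {t g : H} {e : ℕ} (hg : g * t * g⁻¹ = t ^ e) (μ : k) :
    finrank k ((ρ t).eigenspace μ) ≤ finrank k ((ρ t).eigenspace (μ ^ e)) :=
  eig_le (g := ρ g) (g' := ρ g⁻¹) (by rw [← map_mul, mul_inv_cancel, map_one])
    (by rw [← map_pow, ← map_mul, ← map_mul, ← hg]; congr 1; group) μ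

theorem R27.g3 (hR : R27 p ρ) (hp : p ≠ 3) {t g : H} (h : t ^ 3 = 1) (h1 : t ≠ 1) (hg : g * t * g⁻¹ = t ^ 2)
    {ω : k} (hω : IsPrimitiveRoot ω 3) :
    finrank k ((ρ t).eigenspace ω) = 6 ∨ finrank k ((ρ t).eigenspace ω) = 9 := by
  obtain ⟨ζ, rfl⟩ := hω.isUnit (by decide)
  obtain ⟨n, a1, a2, a3⟩ := hR.ex (m := 2) Nat.prime_three hp h h1 (IsPrimitiveRoot.coe_units_iff.1 hω)
  have b1 := eig_le_conj ρ hg (ζ : k)
  have b2 := eig_le_conj ρ hg ((ζ : k) ^ 2)
  rw [← pow_mul, show 2 * 2 = 3 + 1 from rfl, pow_succ _ 3, hω.pow_eq_one, one_mul] at b2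
  have b3 := a3 1 (by decide)
  rw [pow_one] at b3
  rw [b3]
  exact chk3 _ (a1 0) _ (a1 1) _ (a1 2) _ (a1 3) _ (a1 4) _ (a1 5) a2 (by
    rw [← b3, ← a3 2 (by decide)]; exact le_antisymm b1 b2)

theorem R27.g11 (hR : R27 p ρ) (hp : p ≠ 11) {t g : H} (h : t ^ 11 = 1) (h1 : t ≠ 1) : g * t * g⁻¹ ≠ t ^ 2 := by
  intro hg
  have h11 : Nat.Prime 11 := by decide
  obtain ⟨c, a1, a2, a3⟩ := hR.eig _ h11 hp.symm t h h1
  obtain ⟨j, hj, hm⟩ := (wellFounded_lt (α := Fin 6)).has_min {j | c j ≠ 1} (Function.ne_iff.1 a1)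
  have hζ : IsPrimitiveRoot (c j) (10 + 1) := by
    have := Fact.mk h11
    have := IsPrimitiveRoot.orderOf (c j)
    rwa [orderOf_eq_prime (congrFun a2 j) hj] at this
  obtain ⟨n, b1, b2⟩ := exists_exp hζ a2
  have b3 : n j = 1 := hζ.pow_inj (b1 j) (by decide) (by rw [pow_one]; exact (congrFun b2 j).symm)
  have b4 : ∀ i < j, n i = 0 := fun i hi => hζ.pow_inj (b1 i) (by decide) (by
    rw [pow_zero, ← congrFun b2 i]; by_contra e; exact hm i e hi)
  have b5 : ∀ s < 11, finrank k ((ρ t).eigenspace ((c j : k) ^ s)) =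
      cnt 11 s (LL 10 (n 0) (n 1) (n 2) (n 3) (n 4) (n 5)) := fun s hs => by
    rw [finrank_eig (cast_ne h11 hp) (by rw [← map_pow, h, map_one]), a3, ← mult_cpT hζ n hs, ← b2]
  refine not_good (a := n 0) (b := n 1) (c := n 2) (d := n 3) (e := n 4) (f := n 5) (fun s hs => ?_) ?_
  · rw [← b5 s hs, ← b5 _ (Nat.mod_lt _ (by decide)),
      ← pow_eq_pow_mod _ (IsPrimitiveRoot.coe_units_iff.2 hζ).pow_eq_one, mul_comm, pow_mul]
    exact eig_le_conj ρ hg _
  · have c1 := chk11
    have c2 := chk11'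
    simp only [allLt_iff, Bool.and_eq_true] at c1 c2
    have c3 := c2.1 _ (b1 5) _ (b1 4) _ (b1 3)
    fin_cases j
    · exact (show n 0 = 1 from b3) ▸ c1 _ (b1 5) _ (b1 4) _ (b1 3) _ (b1 2) _ (b1 1)
    · rw [show n 1 = 1 from b3, b4 0 (by decide)]; exact c3.1.1.1 _ (b1 2)
    · rw [show n 2 = 1 from b3, b4 0 (by decide), b4 1 (by decide)]; exact c3.1.1.2
    · rw [show n 3 = 1 from b3, b4 0 (by decide), b4 1 (by decide), b4 2 (by decide)]; exact c3.1.2
    · rw [show n 4 = 1 from b3, b4 0 (by decide), b4 1 (by decide), b4 2 (by decide), b4 3 (by decide)]; exact c3.2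
    · rw [show n 5 = 1 from b3, b4 0 (by decide), b4 1 (by decide), b4 2 (by decide), b4 3 (by decide),
        b4 4 (by decide)]; exact c2.2

lemma cpT_ne {c : Fin 6 → kˣ} (h : c ≠ 1) : cpT c ≠ (X - C 1) ^ 27 := fun e => by
  have h1 : ∀ i, ∏ j, c j ^ wt i j = 1 := fun i => by
    have h2 : (cpT c).IsRoot ((∏ j, c j ^ wt i j : kˣ) : k) := by
      rw [cpT, IsRoot.def, eval_prod]
      exact Finset.prod_eq_zero (Finset.mem_univ i) (by rw [eval_sub, eval_X, eval_C, sub_self])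
    rw [e, IsRoot.def, eval_pow, pow_eq_zero_iff (by decide)] at h2
    exact Units.ext (by simpa [sub_eq_zero] using h2)
  have a0 := h1 26; have a1 := h1 10; have a2 := h1 25; have a3 := h1 2; have a4 := h1 1; have a5 := h1 0
  simp [Fin.prod_univ_succ, wt] at a0 a1 a2 a3 a4 a5
  refine h (funext fun j => ?_)
  fin_cases j <;> simp_all

theorem R27.g4 [Finite H] (hR : R27 p ρ) : IsPGroup p ρ.ker := by
  refine IsPGroup.iff_card.2 ⟨_, Nat.eq_prime_pow_of_unique_prime_dvd Nat.card_pos.ne' fun {r} hr hd => ?_⟩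
  by_contra hrp
  have := Fact.mk hr
  obtain ⟨t, ht⟩ := exists_prime_orderOf_dvd_card' r hd
  obtain ⟨c, a1, -, a3⟩ := hR.eig r hr hrp t (by rw [← Subgroup.coe_pow, ← ht, pow_orderOf_eq_one]; rfl) fun e => by
    rw [show t = 1 from Subtype.ext e, orderOf_one] at ht
    exact hr.one_lt.ne ht
  rw [MonoidHom.mem_ker.1 t.2, LinearMap.charpoly_one, hR.dim] at a3
  exact cpT_ne a1 (by rw [← a3, map_one])

theorem R27.rk2 [Finite H] (hR : R27 p ρ) (hp : p ≠ 2) (E : Subgroup H) (h : ∀ a ∈ E, a ^ 2 = 1) :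
    Nat.card E ≤ 352 := by
  classical
  have h2 : ∀ a : E, a⁻¹ = a := fun a => inv_eq_of_mul_eq_one_right (Subtype.ext (by simpa [sq] using h a a.2))
  let x : E →* End k V := ρ.comp E.subtype
  obtain ⟨b, χ, hb⟩ := exists_basis x (fun a b => Commute.map (show a * b = b * a by
    rw [← h2 (a * b), mul_inv_rev, h2, h2]) x) (cast_ne Nat.prime_two hp) (N := 2) fun a => by
      rw [← map_pow, show a ^ 2 = 1 from Subtype.ext (h a a.2), map_one]
  have hne : (-1 : k) ≠ 1 := (IsPrimitiveRoot.neg_one p hp).ne_one (by decide)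
  have h3 : ∀ i, χ i 1 = 1 := fun i => smul_left_injective k (b.ne_zero i) (by
    change _ • _ = _ • _; rw [← hb, map_one, one_smul]; rfl)
  have h4 : ∀ i a c, χ i (a * c) = χ i a * χ i c := fun i a c => smul_left_injective k (b.ne_zero i) (by
    change _ • _ = _ • _; rw [← hb, map_mul, End.mul_apply, hb, map_smul, hb, smul_smul, mul_comm])
  have h5 : ∀ i a, χ i a = 1 ∨ χ i a = -1 := fun i a => mul_self_eq_one_iff.1 (by
    rw [← h4, ← h3 i]; nth_rw 1 [← h2 a]; rw [inv_mul_cancel])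
  let ε : Fin (finrank k V) → E →* ℤ := fun i =>
    { toFun := fun a => if χ i a = -1 then -1 else 1
      map_one' := by rw [h3, if_neg hne.symm]
      map_mul' := fun a c => by rw [h4]; rcases h5 i a with e | e <;> rcases h5 i c with f | f <;> simp [e, f, hne.symm] }
  have := Fintype.ofFinite E
  have h6 : ∀ a : E, (∑ i, ε i a) ^ 2 ≤ 25 + if a = 1 then 704 else 0 := fun a => by
    split_ifs with e
    · simp [e, hR.dim]
    · have h7 := finrank_wt hb ((ρ a).eigenspace (-1)) {a} (fun _ => -1) fun v => by simp [x]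
      have h8 : ∑ i, ε i a = 27 - 2 * (finrank k ((ρ a).eigenspace (-1)) : ℤ) := by
        have : ∀ i, ε i a = 1 - 2 * if χ i a = -1 then 1 else 0 := fun i => by
          change (if χ i a = -1 then -1 else 1 : ℤ) = _; split_ifs <;> rfl
        simp [this, h7, Finset.sum_ite, hR.dim, Fintype.card_subtype, mul_comm]
      rcases hR.g1 hp (h a a.2) (fun f => e (Subtype.ext f)) with f | f <;> rw [h8, f] <;> norm_num
  have h9 : ∑ i : Fin (finrank k V), (Fintype.card E : ℤ) ≤ ∑ a : E, (∑ i, ε i a) ^ 2 := by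
    simp only [sq, Finset.sum_mul_sum]
    rw [Finset.sum_comm]
    refine Finset.sum_le_sum fun i _ => ?_
    rw [Finset.sum_comm]
    refine le_trans (le_of_eq ?_) (Finset.single_le_sum (f := fun j => ∑ a : E, ε i a * ε j a) (fun j _ => ?_)
      (Finset.mem_univ i))
    · have : ∀ a, ε i a * ε i a = 1 := fun a => by
        rw [← map_mul, ← map_one (ε i)]; nth_rw 1 [← h2 a]; rw [inv_mul_cancel]
      simp [this]
    · have := sum_hom_units (ε i * ε j)
      simp only [MonoidHom.mul_apply] at this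
      rw [this]; split_ifs <;> simp
  have h10 := h9.trans (Finset.sum_le_sum fun a _ => h6 a)
  simp [Finset.sum_add_distrib, hR.dim] at h10
  rw [Nat.card_eq_fintype_card]
  omega

end H5.AE
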