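import Mathlib
import Cfsg.Agent.Lib.AltGL.Main
import Cfsg.Agent.Lib.Cusp.Lift
import Cfsg.Agent.Lib.ModRep.Sg

/-!
Alternating sections of a group with a given module: reduction to central extensions.
-/

set_option autoImplicit false
set_option linter.unusedSectionVars false

namespace H5.AE

open Module Equiv Equiv.Perm H82.AG
open scoped commutatorElement

universe u

/-- The `p'`-subgroups of `H` embed into `G` with the same eigenvalues. -/
def Md (p : ℕ) {k V W G H : Type*} [Field k] [AddCommGroup V] [Module k V] [FiniteDimensional k V] [AddCommGroup W]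
    [Module k W] [FiniteDimensional k W] [Group G] [Group H] (σ : G →* End k W) (ρ : H →* End k V) : Prop :=
  ∀ A : Subgroup H, (Nat.card A).Coprime p → ∃ j : A →* G, Function.Injective j ∧
    ∀ a : A, (ρ a).charpoly = (σ (j a)).charpoly

variable {p : ℕ} [Fact p.Prime] {k V : Type} [Field k] [IsAlgClosed k] [CharP k p] [AddCommGroup V] [Module k V]
  [FiniteDimensional k V] {H : Type u} [Group H] [Finite H] {ρ : H →* End k V}
  {Ω : Type} [DecidableEq Ω] [Fintype Ω] {π : H →* Perm Ω}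

theorem semis (P : Subgroup H) [hn : P.Normal] (hP : IsPGroup p P) (ρ : H →* End k V) :
    ∃ (V' : Type) (_ : AddCommGroup V') (_ : Module k V') (_ : FiniteDimensional k V') (ρ' : H →* End k V'),
      (∀ g, (ρ' g).charpoly = (ρ g).charpoly) ∧ ∀ g ∈ P, ρ' g = 1 := by
  induction hN : finrank k V using Nat.strong_induction_on generalizing V with
  | _ N ih =>
  rcases subsingleton_or_nontrivial V with h | h
  · exact ⟨V, _, _, inferInstance, ρ, fun _ => rfl, fun _ _ => Subsingleton.elim _ _⟩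
  let W : Submodule k V := ⨅ g : P, (ρ g).eigenspace 1
  have hm : ∀ v, v ∈ W ↔ ∀ g ∈ P, ρ g v = v := fun v => by simp [W]
  have hW : ∀ g, W ≤ W.comap (ρ g) := fun g v hv => (hm _).2 fun a ha => by
    rw [← act_mul, show a * g = g * (g⁻¹ * a * g⁻¹⁻¹) by group, act_mul, (hm v).1 hv _ (hn.conj_mem a ha _)]
  obtain ⟨v, v0, hv⟩ := H64.MR.exists_fixed ρ p hP
  have h1 := W.finrank_quotient_add_finrank
  have h2 : finrank k W ≠ 0 := fun e => v0 ((Submodule.finrank_eq_zero.1 e).le ((hm v).2 hv))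
  obtain ⟨V', _, _, _, ρ', h3, h4⟩ := ih _ (by omega) (Representation.quotient ρ W hW) rfl
  refine ⟨W × V', _, _, inferInstance, Representation.prod (Representation.subrepresentation ρ W hW) ρ', fun g => ?_,
    fun g hg => ?_⟩
  · rw [H64.Cusp.charpoly_eq_mul W (ρ g) (hW g)]
    exact (LinearMap.charpoly_prodMap _ _).trans (congrArg _ (h3 g))
  · exact LinearMap.ext fun x => Prod.ext (Subtype.ext ((hm _).1 x.1.2 g hg)) (LinearMap.congr_fun (h4 g hg) x.2)

theorem card_le_pow (ev : ∀ h, sign (π h) = 1) (surj : ∀ σ, sign σ = 1 → ∃ h, π h = σ) (h9 : 9 ≤ Fintype.card Ω)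
    {A : Type u} [CommGroup A] [Finite A] (l : ℕ) [Fact l.Prime] (hl : ∀ a : A, a ^ l = 1) (ψ : H →* MulAut A)
    (hψ : ∀ h, ψ h = 1 → π h = 1) : l ^ (Fintype.card Ω - 2) ≤ Nat.card A := by
  obtain ⟨_⟩ : Nonempty (Module (ZMod l) (Additive A)) := ⟨AddCommGroup.zmodModule fun a => hl a.toMul⟩
  let ρ1 := linOf l ψ
  have : Module.Finite (ZMod l) (Additive A) := Module.Finite.of_finite
  obtain ⟨m, b, hc⟩ : ∃ (m : ℕ) (_ : Basis (Fin m) (ZMod l) (Additive A)), Nat.card A = l ^ m :=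
    ⟨_, finBasis (ZMod l) (Additive A), by
      rw [← Nat.card_congr (Additive.toMul (α := A)), natCard_eq_pow_finrank (K := ZMod l), Nat.card_zmod]⟩
  have := bd_mat l (algebraMap (ZMod l) _) (bd m) ev surj h9
    ((LinearMap.toMatrixAlgEquiv b).toRingEquiv.toMonoidHom.comp ρ1) fun h e => hψ h (by
      have : ρ1 h = 1 := (LinearMap.toMatrixAlgEquiv b).injective (by rw [map_one]; exact e)
      ext a
      exact LinearMap.congr_fun this (Additive.ofMul a))
  rw [hc]
  exact Nat.pow_le_pow_right (Fact.out : l.Prime).pos (by split_ifs at this <;> omega)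

theorem card_le_sq' (hinj : Function.Injective ρ) {N : ℕ} (hN : (N : k) ≠ 0)
    (hZ : ∀ z ∈ Subgroup.center H, z ^ N = 1) (E : Subgroup H) [hEn : E.Normal] (h1 : ⁅E, E⁆ ≤ Subgroup.center H)
    (hE' : ∀ D : Subgroup H, D.Normal → D ≤ E → D ≤ Subgroup.center H ∨ D = E) {a b : H} (ha : a ∈ E) (hb : b ∈ E)
    (hab : a * b ≠ b * a) :
    Nat.card (E.map (QuotientGroup.mk' (Subgroup.center H))) ≤ finrank k V * finrank k V := by
  have hc : ∀ {a b : H}, a ∈ E → b ∈ E → ⁅a, b⁆ ∈ Subgroup.center H := fun ha hb =>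
    h1 (Subgroup.commutator_mem_commutator ha hb)
  obtain ⟨χ, v, hv, h0⟩ : ∃ (χ : Subgroup.center H → k) (v : V), (∀ z : Subgroup.center H, ρ z v = χ z • v) ∧
      (ρ ⁅a, b⁆ - 1) v ≠ 0 := by
    by_contra h
    push Not at h
    have := eq_zero_of_wt (fun z : Subgroup.center H => ρ z) (fun x y => Commute.map
      (Subgroup.mem_center_iff.1 y.2 x) ρ) hN (fun z => by rw [← map_pow, hZ _ z.2, map_one]) _ h
    rw [sub_eq_zero, ← map_one ρ] at this
    exact hab (commutatorElement_eq_one_iff_mul_comm.1 (hinj this))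
  let W : Submodule k V := ⨅ z : Subgroup.center H, (ρ z).eigenspace (χ z)
  have hm : ∀ v, v ∈ W ↔ ∀ z : Subgroup.center H, ρ z v = χ z • v := fun v => by simp [W]
  let σ : H →* End k W := Representation.subrepresentation ρ W fun g v hv => (hm _).2 fun z => by
    rw [← act_mul, ← Subgroup.mem_center_iff.1 z.2 g, act_mul, (hm v).1 hv, map_smul]
  have hs : ∀ z (hz : z ∈ Subgroup.center H) w, σ z w = χ ⟨z, hz⟩ • w := fun z hz w =>
    Subtype.ext ((hm _).1 w.2 ⟨z, hz⟩)
  let D : Subgroup H := E ⊓ ⨅ e : E, (Subgroup.centralizer {σ.toHomUnits e}).comap σ.toHomUnits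
  have hD : ∀ x, x ∈ D ↔ x ∈ E ∧ ∀ e ∈ E, σ (x * e) = σ (e * x) := fun x => by
    simp [D, Subgroup.mem_iInf, Subgroup.mem_centralizer_singleton_iff, Units.ext_iff]
  have h2 : D ≤ Subgroup.center H := by
    refine (hE' D ⟨fun x hx g => (hD _).2 ⟨hEn.conj_mem _ ((hD x).1 hx).1 g, fun e he => ?_⟩⟩ inf_le_left).resolve_right
      fun e => h0 ?_
    · rw [show g * x * g⁻¹ * e = g * (x * (g⁻¹ * e * g⁻¹⁻¹)) * g⁻¹ by group, map_mul, map_mul,
        ((hD x).1 hx).2 _ (hEn.conj_mem e he _), ← map_mul, ← map_mul]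
      congr 1; group
    · have h3 : σ ⁅a, b⁆ = 1 := by
        rw [commutatorElement_def, mul_assoc, map_mul, ((hD a).1 (e.ge ha)).2 b hb, ← map_mul, ← map_one σ]
        congr 1; group
      exact sub_eq_zero.2 (congrArg Subtype.val (LinearMap.congr_fun h3 ⟨v, (hm v).2 hv⟩))
  choose s hs1 hs2 using fun a : E.map (QuotientGroup.mk' (Subgroup.center H)) => a.2
  refine le_trans ?_ (Nat.mul_le_mul (Submodule.finrank_le W) (Submodule.finrank_le W))
  rw [← finrank_linearMap k k W W]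
  refine card_le_of_wt (V := End k W) (fun e : E => LinearMap.mulLeft k (σ e) ∘ₗ LinearMap.mulRight k (σ (e : H)⁻¹))
    (fun x e => χ ⟨_, hc e.2 (hs1 x)⟩) (fun x => ⟨σ (s x), fun h => ?_, fun e => ?_⟩) fun x y h => ?_
  · exact act_ne σ (s x) (v := ⟨v, (hm v).2 hv⟩) (fun e => h0 (by rw [show v = 0 from congrArg Subtype.val e, map_zero]))
      (by rw [h]; rfl)
  · refine LinearMap.ext fun w => ?_
    rw [LinearMap.smul_apply, ← hs, ← act_mul, commutatorElement_def, inv_mul_cancel_right, mul_assoc, map_mul, map_mul]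
    rfl
  · have h3 : ∀ e : E, σ ⁅(e : H), s x⁆ = σ ⁅(e : H), s y⁆ := fun e => LinearMap.ext fun w => by
      rw [hs _ (hc e.2 (hs1 x)), hs _ (hc e.2 (hs1 y))]; exact congrArg (· • w) (congrFun h e)
    have h4 : (s y)⁻¹ * s x ∈ Subgroup.center H := h2 ((hD _).2 ⟨E.mul_mem (E.inv_mem (hs1 y)) (hs1 x), fun e he => by
      calc _ = σ ((s y)⁻¹ * e) * σ ⁅e⁻¹, s x⁆ * σ (s x) := by
            rw [← map_mul, ← map_mul, commutatorElement_def]; congr 1; group
        _ = _ := by rw [h3 ⟨e⁻¹, inv_mem he⟩, ← map_mul, ← map_mul, commutatorElement_def]; congr 1; group⟩)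
    exact Subtype.ext (by rw [← hs2, ← hs2]; exact (QuotientGroup.eq.2 h4).symm)

theorem ker_le_frattini (surj : ∀ σ, sign σ = 1 → ∃ h, π h = σ)
    (hmin : ∀ P : Subgroup H, (∀ σ, sign σ = 1 → ∃ h ∈ P, π h = σ) → P = ⊤) : π.ker ≤ frattini H :=
  le_iInf₂ fun M hM => by
    by_contra hc
    have h1 : M ⊔ π.ker = ⊤ := hM.2 _ (left_lt_sup.2 hc)
    refine hM.1 (hmin M fun σ hσ => ?_)
    obtain ⟨h, rfl⟩ := surj σ hσ
    obtain ⟨a, ha, b, hb, rfl⟩ := Subgroup.mem_sup_of_normal_right.1 (h1.ge (Subgroup.mem_top h))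
    exact ⟨a, ha, by rw [map_mul, MonoidHom.mem_ker.1 hb, mul_one]⟩

theorem ker_cent (ev : ∀ h, sign (π h) = 1) (surj : ∀ σ, sign σ = 1 → ∃ h, π h = σ) (h9 : 9 ≤ Fintype.card Ω)
    (hmin : ∀ P : Subgroup H, (∀ σ, sign σ = 1 → ∃ h ∈ P, π h = σ) → P = ⊤) (hinj : Function.Injective ρ)
    (hp : ¬ p ∣ Nat.card (frattini H)) (hn : finrank k V * finrank k V < 2 ^ (Fintype.card Ω - 2))
    (hrk : ∀ l : ℕ, l.Prime → l ≠ p → ∀ E : Subgroup H, (∀ a ∈ E, ∀ b ∈ E, a * b = b * a) → (∀ a ∈ E, a ^ l = 1) →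
      Nat.card E < l ^ (Fintype.card Ω - 2)) : π.ker ≤ Subgroup.center H := by
  by_contra hK
  obtain ⟨E, ⟨hEn, hEK, hEZ⟩, hE⟩ := (wellFounded_lt (α := Subgroup H)).has_min
    {E | E.Normal ∧ E ≤ π.ker ∧ ¬ E ≤ Subgroup.center H} ⟨π.ker, inferInstance, le_rfl, hK⟩
  have hE' : ∀ D : Subgroup H, D.Normal → D ≤ E → D ≤ Subgroup.center H ∨ D = E := fun D h1 h2 => by
    by_contra hc
    push Not at hc
    exact hE D ⟨h1, h2.trans hEK, hc.1⟩ (lt_of_le_of_ne h2 hc.2)
  have hF : E ≤ frattini H := hEK.trans (ker_le_frattini surj hmin)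
  have h1 : ⁅E, E⁆ ≤ Subgroup.center H := by
    refine (hE' _ inferInstance (Subgroup.commutator_le_left E E)).resolve_right fun e => ?_
    have := frattini_nilpotent (G := H)
    have h2 := Group.IsSolvable.commutator_lt_of_ne_bot (H := E.subgroupOf (frattini H)) (by
      intro h
      rw [Subgroup.subgroupOf_eq_bot] at h
      exact hEZ ((h.eq_bot_of_le hF).le.trans bot_le))
    refine h2.ne (Subgroup.map_injective (frattini H).subtype_injective ?_)
    rw [Subgroup.map_commutator, Subgroup.map_subgroupOf_eq_of_le hF, e]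
  have hcen : ∀ e, (∀ g, ⁅g, e⁆ ∈ Subgroup.center H) → e ∈ Subgroup.center H := fun e h => by
    have h5 := H72.AC.commutator_le_cent (K := ⊤) (y := e) fun g _ => h g
    rw [← commutator_def, perfect ev surj h9 hmin] at h5
    exact Subgroup.mem_center_iff.2 fun g => Subgroup.mem_centralizer_singleton_iff.1 (h5 (Subgroup.mem_top g))
  let q := QuotientGroup.mk' (Subgroup.center H)
  have hAn : (E.map q).Normal := hEn.map q (QuotientGroup.mk'_surjective _)
  have hq : ∀ a ∈ E, ∀ b ∈ E, q a * q b = q b * q a := fun a ha b hb => by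
    rw [← commutatorElement_eq_one_iff_mul_comm, ← map_commutatorElement]
    exact (QuotientGroup.eq_one_iff _).2 (h1 (Subgroup.commutator_mem_commutator ha hb))
  let _ : CommGroup (E.map q) :=
    { (inferInstance : Group (E.map q)) with
      mul_comm := by
        rintro ⟨_, a, ha, rfl⟩ ⟨_, b, hb, rfl⟩
        exact Subtype.ext (hq a ha b hb) }
  obtain ⟨l, hl, hld⟩ := Nat.exists_prime_and_dvd (n := Nat.card (E.map q)) fun h => by
    rw [Subgroup.card_eq_one, Subgroup.map_eq_bot_iff, QuotientGroup.ker_mk'] at h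
    exact hEZ h
  have := Fact.mk hl
  have hlp : l ≠ p := fun e => hp (e ▸ hld.trans ((Subgroup.card_map_dvd E q).trans (Subgroup.card_dvd_of_le hF)))
  obtain ⟨⟨_, x, hx, rfl⟩, hxl⟩ := exists_prime_orderOf_dvd_card' l hld
  let D : Subgroup H :=
    { carrier := {e | e ∈ E ∧ q e ^ l = 1}
      one_mem' := ⟨one_mem _, by simp⟩
      mul_mem' := fun {a b} ha hb => ⟨mul_mem ha.1 hb.1, by
        rw [map_mul, Commute.mul_pow (hq a ha.1 b hb.1), ha.2, hb.2, mul_one]⟩
      inv_mem' := fun {a} ha => ⟨inv_mem ha.1, by rw [map_inv, inv_pow, ha.2, inv_one]⟩ }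
  have hD : D = E := by
    refine (hE' D ⟨fun a ha g => ⟨hEn.conj_mem a ha.1 g, by
      rw [map_mul, map_mul, map_inv, conj_pow, ha.2, mul_one, mul_inv_cancel]⟩⟩
      fun a ha => ha.1).resolve_left fun h => ?_
    have h4 : q x = 1 := (QuotientGroup.eq_one_iff _).2 (h ⟨hx, by
      have := congrArg Subtype.val (pow_orderOf_eq_one (⟨q x, x, hx, rfl⟩ : E.map q))
      rwa [hxl] at this⟩)
    rw [show (⟨q x, x, hx, rfl⟩ : E.map q) = 1 from Subtype.ext h4, orderOf_one] at hxl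
    exact hl.one_lt.ne hxl
  have h4 := card_le_pow ev surj h9 (A := E.map q) l
    (by rintro ⟨_, a, ha, rfl⟩; exact Subtype.ext (hD.ge ha).2) (MulAut.conjNormal.comp q)
    (le_ker ev surj h9 hmin (MulAut.conjNormal.comp q).ker fun h => hEZ fun e he => hcen e fun g => by
      have := congrArg (fun f : MulAut (E.map q) => (f ⟨q e, e, he, rfl⟩ : H ⧸ Subgroup.center H))
        (MonoidHom.mem_ker.1 (h.ge (Subgroup.mem_top g)))
      refine (QuotientGroup.eq_one_iff _).1 ?_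
      change q ⁅g, e⁆ = 1
      rw [map_commutatorElement, commutatorElement_def, mul_inv_eq_one]
      exact this)
  by_cases hab : ∀ a ∈ E, ∀ b ∈ E, a * b = b * a
  · let D' : Subgroup H :=
      { carrier := {e | e ∈ E ∧ e ^ l = 1}
        one_mem' := ⟨one_mem _, by simp⟩
        mul_mem' := fun {a b} ha hb => ⟨mul_mem ha.1 hb.1, by
          rw [Commute.mul_pow (hab a ha.1 b hb.1), ha.2, hb.2, mul_one]⟩
        inv_mem' := fun {a} ha => ⟨inv_mem ha.1, by rw [inv_pow, ha.2, inv_one]⟩ }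
    rcases hE' D' ⟨fun a ha g => ⟨hEn.conj_mem a ha.1 g, by rw [conj_pow, ha.2, mul_one, mul_inv_cancel]⟩⟩
      fun a ha => ha.1 with h | h
    · refine hEZ fun e he => hcen e fun g => h ⟨mul_mem (hEn.conj_mem e he g) (inv_mem he), ?_⟩
      have h5 : e ^ l ∈ Subgroup.center H := (QuotientGroup.eq_one_iff _).1 ((map_pow q e l).trans (hD.ge he).2)
      rw [commutatorElement_def, Commute.mul_pow (hab _ (hEn.conj_mem e he g) _ (inv_mem he)), conj_pow,
        Subgroup.mem_center_iff.1 h5 g, mul_inv_cancel_right, inv_pow, mul_inv_cancel]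
    · exact absurd ((h4.trans (Nat.le_of_dvd Nat.card_pos (Subgroup.card_map_dvd E q))).trans_lt
        (hrk l hl hlp E hab fun a ha => (h.ge ha).2)) (lt_irrefl _)
  · push Not at hab
    obtain ⟨a, ha, b, hb, hab⟩ := hab
    have h5 := card_le_sq' hinj (N := Nat.card (frattini H)) (fun e => hp ((CharP.cast_eq_zero_iff k p _).1 e))
      (fun z hz => congrArg Subtype.val (pow_card_eq_one' (x := (⟨z, ker_le_frattini surj hmin (le_ker ev surj h9 hmin _
        (fun e => by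
          obtain ⟨g, h, f⟩ := not_comm surj h9
          exact f (congrArg π (Subgroup.mem_center_iff.1 (e.ge (Subgroup.mem_top h)) g))) z hz)⟩ : frattini H))))
      E h1 hE' ha hb hab
    exact absurd (((Nat.pow_le_pow_left hl.two_le _).trans (h4.trans h5)).trans_lt hn) (lt_irrefl _)

variable {W : Type*} [AddCommGroup W] [Module k W] [FiniteDimensional k W] {G : Type*} [Group G] {σ : G →* End k W}

theorem Md.quot (hM : Md p σ ρ) (P : Subgroup H) [P.Normal] (hP : IsPGroup p P) (h : ∀ g ∈ P, ρ g = 1) :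
    Md p σ (QuotientGroup.lift P ρ h) := fun A hA => by
  obtain ⟨B, hB⟩ : ∃ B, B = A.comap (QuotientGroup.mk' P) := ⟨_, rfl⟩
  obtain ⟨f, hf, f1⟩ : ∃ f : B →* A, Function.Surjective f ∧ ∀ x, (f x : H ⧸ P) = ((x : H) : H ⧸ P) := by
    subst hB
    exact ⟨(QuotientGroup.mk' P).subgroupComap A,
      MonoidHom.subgroupComap_surjective_of_surjective _ _ (QuotientGroup.mk'_surjective P), fun _ => rfl⟩
  have h1 : IsPGroup p f.ker := fun x => by
    obtain ⟨n, hn⟩ := hP ⟨x, (QuotientGroup.eq_one_iff _).1 (by rw [← f1, MonoidHom.mem_ker.1 x.2]; rfl)⟩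
    exact ⟨n, Subtype.ext (Subtype.ext (congrArg (fun y : P => (y : H)) hn))⟩
  obtain ⟨n, hn⟩ := h1.exists_card_eq
  obtain ⟨C, hC⟩ := Subgroup.exists_right_complement'_of_coprime (N := f.ker) (by
    rw [hn, Subgroup.index_ker, MonoidHom.range_eq_top.2 hf, Subgroup.card_top]; exact hA.symm.pow_left n)
  have hg : Function.Bijective (f.comp C.subtype) := ⟨(injective_iff_map_eq_one _).2 fun x hx =>
    Subtype.ext (Subgroup.disjoint_def.1 hC.disjoint hx x.2), fun a => by
      obtain ⟨b, rfl⟩ := hf a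
      obtain ⟨⟨x, y⟩, rfl⟩ := hC.2 b
      exact ⟨y, by simp only [map_mul, MonoidHom.mem_ker.1 x.2, one_mul]; rfl⟩⟩
  let g := MulEquiv.ofBijective _ hg
  let e := C.equivMapOfInjective _ B.subtype_injective
  obtain ⟨j, h2, h3⟩ := hM (C.map B.subtype) (by rwa [← Nat.card_congr e.toEquiv, Nat.card_congr g.toEquiv])
  refine ⟨j.comp (e.toMonoidHom.comp g.symm.toMonoidHom), h2.comp (e.injective.comp g.symm.injective), fun a => ?_⟩
  obtain ⟨x, rfl⟩ := g.surjective a
  simp only [MonoidHom.comp_apply, MulEquiv.coe_toMonoidHom, MulEquiv.symm_apply_apply]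
  rw [← h3, show ((g x : A) : H ⧸ P) = (((x : B) : H) : H ⧸ P) from f1 x]
  rfl

theorem Md.sub (hM : Md p σ ρ) (P : Subgroup H) : Md p σ (ρ.comp P.subtype) := fun A hA => by
  let e := A.equivMapOfInjective _ P.subtype_injective
  obtain ⟨j, h2, h3⟩ := hM (A.map P.subtype) (by rwa [← Nat.card_congr e.toEquiv])
  exact ⟨j.comp e.toMonoidHom, h2.comp e.injective, fun a => h3 (e a)⟩

theorem Md.dim (hM : Md p σ ρ) : finrank k V = finrank k W := by
  obtain ⟨j, -, h⟩ := hM ⊥ (by simp)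
  rw [← LinearMap.charpoly_natDegree (ρ (1 : (⊥ : Subgroup H))), h, LinearMap.charpoly_natDegree]

theorem Md.elt (hM : Md p σ ρ) {t : H} {r : ℕ} (hr : r.Coprime p) (h : t ^ r = 1) :
    ∃ s : G, orderOf s = orderOf t ∧ ∀ n : ℕ, (ρ (t ^ n)).charpoly = (σ (s ^ n)).charpoly := by
  obtain ⟨j, h1, h2⟩ := hM (Subgroup.zpowers t) (by
    rw [Nat.card_zpowers]; exact hr.coprime_dvd_left (orderOf_dvd_of_pow_eq_one h))
  exact ⟨j ⟨t, Subgroup.mem_zpowers t⟩, by rw [orderOf_injective j h1, Subgroup.orderOf_mk], fun n => by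
    rw [← map_pow j, ← h2, Subgroup.coe_pow]⟩

theorem Md.rk (hM : Md p σ ρ) {l : ℕ} (hl : l.Prime) (hlp : l ≠ p) (E : Subgroup H)
    (h1 : ∀ a ∈ E, ∀ b ∈ E, a * b = b * a) (h2 : ∀ a ∈ E, a ^ l = 1) : ∃ E' : Subgroup G, Nat.card E' = Nat.card E ∧
      (∀ a ∈ E', ∀ b ∈ E', a * b = b * a) ∧ ∀ a ∈ E', a ^ l = 1 := by
  have := Fact.mk hl
  obtain ⟨n, hn⟩ := IsPGroup.exists_card_eq (p := l) (G := E) fun a => ⟨1, Subtype.ext (by simpa using h2 a a.2)⟩
  obtain ⟨j, h3, -⟩ := hM E (hn ▸ ((Nat.coprime_primes hl Fact.out).2 hlp).pow_left n)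
  refine ⟨j.range, (Nat.card_congr (MonoidHom.ofInjective h3).toEquiv).symm, ?_, ?_⟩
  · rintro _ ⟨a, rfl⟩ _ ⟨b, rfl⟩
    rw [← map_mul, ← map_mul, show a * b = b * a from Subtype.ext (h1 a a.2 b b.2)]
  · rintro _ ⟨a, rfl⟩
    rw [← map_pow, show a ^ l = 1 from Subtype.ext (h2 a a.2), map_one]

/-- Reduction to a central extension. -/
theorem reduce (h9 : 9 ≤ Fintype.card Ω)
    (h4 : ∀ r : ℕ, r.Prime → r ≠ p → ∀ g : G, orderOf g = r → (σ g).charpoly ≠ (σ 1).charpoly)
    (hn : finrank k W * finrank k W < 2 ^ (Fintype.card Ω - 2))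
    (hrk : ∀ l : ℕ, l.Prime → l ≠ p → ∀ E : Subgroup G, (∀ a ∈ E, ∀ b ∈ E, a * b = b * a) → (∀ a ∈ E, a ^ l = 1) →
      Nat.card E < l ^ (Fintype.card Ω - 2))
    (fin : ∀ (V : Type) [AddCommGroup V] [Module k V] [FiniteDimensional k V] (H : Type u) [Group H] [Finite H]
      (ρ : H →* End k V) (π : H →* Perm Ω), Md p σ ρ → Function.Injective ρ → Cx π →
      (∀ P : Subgroup H, (∀ σ, sign σ = 1 → ∃ h ∈ P, π h = σ) → P = ⊤) →
      (∀ z z', π z = 1 → π z' = 1 → z ≠ 1 → z' ≠ 1 → z = z') → False)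
    (hM : Md p σ ρ) (ev : ∀ h, sign (π h) = 1) (surj : ∀ σ, sign σ = 1 → ∃ h, π h = σ) : False := by
  induction hN : Nat.card H using Nat.strong_induction_on generalizing H V with
  | _ N ih =>
  subst hN
  by_cases hmin : ∀ P : Subgroup H, (∀ σ, sign σ = 1 → ∃ h ∈ P, π h = σ) → P = ⊤
  swap
  · push Not at hmin
    obtain ⟨P, h1, h2⟩ := hmin
    exact ih _ (lt_of_le_of_ne (Subgroup.card_le_card_group P) fun e => h2 (Subgroup.eq_top_of_card_eq P e))
      (hM.sub P) (π := π.comp P.subtype) (fun h => ev h) (fun σ hσ => let ⟨h, hh, e⟩ := h1 σ hσ; ⟨⟨h, hh⟩, e⟩) rfl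
  by_cases hP : ∀ P : Subgroup H, P.Normal → IsPGroup p P → P = ⊥
  swap
  · push Not at hP
    obtain ⟨P, _, h1, h2⟩ := hP
    obtain ⟨V', _, _, _, ρ', h3, h5⟩ := semis P h1 ρ
    have h6 : Md p σ ρ' := fun A hA => let ⟨j, a1, a2⟩ := hM A hA; ⟨j, a1, fun a => (h3 a).trans (a2 a)⟩
    refine ih _ ?_ (h6.quot P h1 h5) (π := QuotientGroup.lift P π (le_ker ev surj h9 hmin P ?_)) (fun h => ?_)
      (fun σ hσ => ?_) rfl
    · have h1 := Subgroup.card_eq_card_quotient_mul_card_subgroup P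
      have h2 := (Subgroup.one_lt_card_iff_ne_bot _).2 h2
      have h3 : 0 < Nat.card (H ⧸ P) := Nat.card_pos
      nlinarith
    · rintro rfl
      have := (h1.of_equiv Subgroup.topEquiv).isNilpotent
      obtain ⟨g, h, e⟩ := not_comm surj h9
      have : Nontrivial H := ⟨_, _, fun f => e (congrArg π f)⟩
      exact (Group.IsSolvable.commutator_lt_top_of_nontrivial H).ne (perfect ev surj h9 hmin)
    · obtain ⟨h, rfl⟩ := QuotientGroup.mk_surjective h
      exact ev h
    · obtain ⟨h, e⟩ := surj σ hσ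
      exact ⟨h, e⟩
  have hker : ρ.ker = ⊥ := hP _ inferInstance (by
    refine IsPGroup.iff_card.2 ⟨_, Nat.eq_prime_pow_of_unique_prime_dvd Nat.card_pos.ne' fun {r} hr hd => ?_⟩
    by_contra hrp
    have := Fact.mk hr
    obtain ⟨t, ht⟩ := exists_prime_orderOf_dvd_card' r hd
    rw [← Subgroup.orderOf_coe] at ht
    obtain ⟨s, a1, a2⟩ := hM.elt ((Nat.coprime_primes hr Fact.out).2 hrp) (ht ▸ pow_orderOf_eq_one (t : H))
    refine h4 r hr hrp s (a1.trans ht) ?_
    rw [← pow_one s, ← a2, ← pow_zero s, ← a2, pow_one, pow_zero, map_one]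
    exact congrArg _ (MonoidHom.mem_ker.1 t.2))
  have hinj : Function.Injective ρ := fun a b e => by
    rw [← inv_mul_eq_one, ← Subgroup.mem_bot, ← hker, MonoidHom.mem_ker, map_mul, ← e, ← map_mul,
      inv_mul_cancel, map_one]
  have hK := ker_cent ev surj h9 hmin hinj (p := p) (fun h => by
    have := frattini_nilpotent (G := H)
    obtain ⟨S⟩ : Nonempty (Sylow p (frattini H)) := inferInstance
    have := S.characteristic_of_normal inferInstance
    exact S.ne_bot_of_dvd_card h ((Subgroup.map_eq_bot_iff_of_injective _ (frattini H).subtype_injective).1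
      (hP _ inferInstance (S.isPGroup'.map _)))) (hM.dim ▸ hn) fun l hl hlp E h1 h2 => by
    obtain ⟨E', a1, a2, a3⟩ := hM.rk hl hlp E h1 h2
    exact a1 ▸ hrk l hl hlp E' a2 a3
  have h2 := ker_two ev surj h9 (perfect ev surj h9 hmin) hK
  refine fin V H ρ π hM hinj ⟨ev, surj, fun z hz g => (Subgroup.mem_center_iff.1 (hK hz) g).symm, fun z hz => ?_⟩ hmin h2
  by_cases h3 : z = 1
  · simp [h3]
  · rw [mul_eq_one_iff_eq_inv]
    exact h2 _ _ hz (by rw [map_inv, hz, inv_one]) h3 (inv_ne_one.2 h3)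

end H5.AE
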