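import Mathlib
import Cfsg.Agent.Lib.AltE6.Fac
import Cfsg.Agent.Lib.AltE6.Clf

/-!
Covers of `A₁₂` have no 27-dimensional module of type `E₆` in characteristic prime to six.
-/

set_option autoImplicit false
set_option linter.unusedSectionVars false

namespace H5.AE

open Module Equiv Equiv.Perm H82.AG

universe u

/-- Four disjoint 3-cycles. -/
def cc : Fin 4 → Perm (Fin 12) := ![cyc 0 1 2, cyc 3 4 5, cyc 6 7 8, cyc 9 10 11]

/-- Elements normalising the group they generate. -/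
def gn : Fin 3 → Perm (Fin 12) := ![swap 0 3 * swap 1 4 * swap 2 5 * swap 7 8,
  (swap 0 9 * swap 0 6 * swap 0 3) * (swap 1 10 * swap 1 7 * swap 1 4) * (swap 2 11 * swap 2 8 * swap 2 5) * swap 1 2,
  swap 1 2 * swap 4 5]

/-- The permutations of the blocks. -/
def sg : Fin 3 → Fin 4 → Fin 4 := ![![1, 0, 2, 3], ![3, 0, 1, 2], ![0, 1, 2, 3]]

/-- The signs. -/
def sn : Fin 3 → Fin 4 → Fin 3 := ![![1, 1, 2, 1], ![1, 2, 1, 1], ![2, 2, 1, 1]]

lemma gn_ok : ∀ j, sign (gn j) = 1 ∧ ∀ i, cc i * gn j = gn j * cc (sg j i) ^ (sn j i : ℕ) := by decide +kernel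

/-- The action on weights. -/
def ac (j : Fin 3) (e : Fin 4 → Fin 3) : Fin 4 → Fin 3 := fun i => e (sg j i) * sn j i

/-- The number of non-zero coordinates. -/
def nz (e : Fin 4 → Fin 3) : Fin 5 := ∑ i, if e i = 0 then 0 else 1

/-- Words leading to the orbit representatives. -/
def wd (e : Fin 4 → Fin 3) : List (Fin 3) :=
  [[], [], [2], [0], [], [1, 2, 1, 1, 1], [2, 0], [1, 1, 0, 1, 1], [2], [1, 1], [1, 0, 1], [1, 2, 0, 1], [1, 2, 1, 1], [],
  [1, 1, 0, 1, 0], [2, 1, 1, 1], [1, 1, 0, 1, 2, 0], [2], [1, 1, 0], [1, 2, 1, 1, 0], [2, 1, 0, 1], [1, 1, 1], [0],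
  [1, 1, 0, 1, 2], [1, 1, 0, 1], [1, 1, 0, 1], [2, 0], [1], [1, 2], [1], [1, 2, 0], [0, 1, 2], [1], [1, 0], [1, 0],
  [0, 1], [1, 2, 1], [1, 0, 1], [0, 1, 2, 1], [1, 0, 1, 1], [], [1], [2, 1, 1, 0], [1, 2], [2], [2, 1, 1], [2, 0, 1, 1],
  [2, 1, 1], [1, 0, 1, 0], [0], [1, 2, 0], [0, 1, 2, 1, 0], [1, 0], [2, 0], [2, 1], [2, 1], [2, 1, 2], [2, 1, 0], [2, 1],
  [2, 0, 1, 0], [2, 1, 2, 0], [2, 0, 1], [2, 1, 2], [1, 1], [0, 1, 1], [1, 1], [2, 1, 2, 1, 0], [2, 1], [1, 1],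
  [2, 1, 1, 1], [2, 0, 1], [2, 1, 2], [1, 1, 0], [2, 1, 2, 1], [2, 1, 1, 1, 0], [1, 1, 1], [2, 1, 0], [1, 1, 1],
  [1, 1, 0], [1, 1, 0], [2, 1, 2, 0]].getD (e 0 + 3 * e 1 + 9 * e 2 + 27 * e 3 : ℕ) []

lemma wd_ok : ∀ e, ((wd e).foldr ac e = fun i : Fin 4 => if (i : ℕ) < nz e then 1 else 0) ∧ ∀ j, (ac j)^[7] (ac j e) = e := by
  decide +kernel

/-- The number of weights of a given type with prescribed coordinates. -/
def cf (S : Finset (Fin 4)) (e0 : Fin 4 → Fin 3) (j : Fin 5) : ℕ :=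
  ((Finset.univ.filter fun e : Fin 4 → Fin 3 => ∀ a ∈ S, e a = e0 a).filter fun e => nz e = j).card

lemma cf_ok : cf ∅ 0 = ![1, 8, 24, 32, 16] ∧ cf {0} 1 = ![0, 1, 6, 12, 8] ∧ cf {0} 0 = ![1, 6, 12, 8, 0] ∧
    cf {0, 3} 1 = ![0, 0, 1, 4, 4] ∧ cf {0, 1, 3} ![1, 0, 0, 1] = ![0, 0, 1, 2, 0] := by decide +kernel

variable {p : ℕ} [Fact p.Prime] {k V : Type} [Field k] [IsAlgClosed k] [CharP k p] [AddCommGroup V] [Module k V]
  [FiniteDimensional k V] {H : Type u} [Group H] [Finite H] {ρ : H →* End k V} {π : H →* Perm (Fin 12)}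

lemma cc_pow : ∀ i, cc i ^ 3 = 1 := by decide +kernel

theorem mult0 (hx : Cx π) (ρ : H →* End k V) {τ : Fin 4 → H} (hτ : ∀ i, π (τ i) = cc i) (oτ : ∀ i, Od (τ i)) {ω : k}
    (hω : IsPrimitiveRoot ω 3) : ∃ M : Fin 5 → ℕ, ∀ (S : Finset (Fin 4)) (e0 : Fin 4 → Fin 3) (U : Submodule k V),
      (∀ v, v ∈ U ↔ ∀ a ∈ S, ρ (τ a) v = ω ^ (e0 a : ℕ) • v) → finrank k U = ∑ j, cf S e0 j * M j := by
  have h3 : ∀ i, τ i ^ 3 = 1 := fun i => hx.pow_eq (oτ i) (by rw [hτ, cc_pow])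
  obtain ⟨b, χ, hb⟩ := exists_basis (fun a => ρ (τ a)) (fun i j => Commute.map (hx.comm (oτ j) (by
    rw [hτ, hτ]; revert i j; decide +kernel)) ρ) (N := 3) (hω.neZero'.out) fun i => by rw [← map_pow, h3, map_one]
  choose w hw1 hw using fun i a => hω.eq_pow_of_pow_eq_one
    (Wt.pow_eq (ρ := ρ) (x := τ) ⟨b i, b.ne_zero i, hb i⟩ (h3 a))
  let m : (Fin 4 → Fin 3) → ℕ := fun e => finrank k (⨅ a, (ρ (τ a)).eigenspace (ω ^ (e a : ℕ)) : Submodule k V)
  have h1 : ∀ j e, m e ≤ m (ac j e) := fun j e => by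
    obtain ⟨g, hg⟩ := hx.surj _ (gn_ok j).1
    refine LinearMap.finrank_le_finrank_of_injective (f := (ρ g).restrict fun v hv => ?_) fun x y h => Subtype.ext ?_
    · simp only [Submodule.mem_iInf, End.mem_eigenspace_iff] at hv ⊢
      intro a
      rw [← act_mul, hx.rel (oτ a) (oτ (sg j a)) (m := sn j a) (by rw [hτ, hτ, hg, (gn_ok j).2]), act_mul, map_pow,
        ← map_smul, ac, Fin.val_mul, ← pow_eq_pow_mod _ hω.pow_eq_one, pow_mul]
      congr 1
      generalize (sn j a : ℕ) = n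
      induction n with
      | zero => simp
      | succ n ih => rw [pow_succ, End.mul_apply, hv, map_smul, ih, smul_smul, pow_succ']
    · rw [← act_inv ρ g x, ← act_inv ρ g y]
      exact congrArg (fun z => ρ g⁻¹ z.1) h
  have h2 : ∀ j e, m (ac j e) = m e := fun j e => le_antisymm (by
    nth_rw 2 [← (wd_ok e).2 j]
    exact iter (fun x => m (ac j e) ≤ m x) (fun x h => h.trans (h1 j x)) 7 le_rfl) (h1 j e)
  have h4 : ∀ (L : List (Fin 3)) e, m (L.foldr ac e) = m e := fun L e => by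
    induction L with
    | nil => rfl
    | cons j L ih => rw [List.foldr_cons, h2, ih]
  have h5 : ∀ (S : Finset (Fin 4)) (e0 : Fin 4 → Fin 3) (U : Submodule k V),
      (∀ v, v ∈ U ↔ ∀ a ∈ S, ρ (τ a) v = ω ^ (e0 a : ℕ) • v) → finrank k U =
        (Finset.univ.filter fun i => ∀ a ∈ S, (⟨w i a, hw1 i a⟩ : Fin 3) = e0 a).card := fun S e0 U hU => by
    rw [finrank_wt hb U S (fun a => ω ^ (e0 a : ℕ)) hU, ← Nat.card_eq_finsetCard]
    refine Nat.card_congr (Equiv.subtypeEquivRight fun i => ?_)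
    simp only [Set.mem_ofPred_eq, Finset.mem_coe, Finset.mem_filter, Finset.mem_univ, true_and, ← hw, Fin.ext_iff]
    exact forall₂_congr fun a _ => ⟨hω.pow_inj (hw1 i a) (e0 a).2, fun e => by rw [e]⟩
  refine ⟨fun j => m fun i => if (i : ℕ) < j then 1 else 0, fun S e0 U hU => ?_⟩
  rw [h5 S e0 U hU, Finset.card_eq_sum_card_fiberwise (f := fun i a => (⟨w i a, hw1 i a⟩ : Fin 3))
    (t := Finset.univ.filter fun e : Fin 4 → Fin 3 => ∀ a ∈ S, e a = e0 a) (fun i hi => by simpa using hi),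
    ← Finset.sum_fiberwise (g := nz)]
  refine Finset.sum_congr rfl fun j _ => ?_
  rw [cf, ← smul_eq_mul, ← Finset.sum_const]
  refine Finset.sum_congr rfl fun e he => ?_
  simp only [Finset.mem_filter, Finset.mem_univ, true_and] at he
  beta_reduce
  rw [← he.2, ← (wd_ok e).1, h4, show m e = _ from h5 Finset.univ e _ fun v => by simp]
  congr 1
  ext i
  simp only [Finset.mem_filter, Finset.mem_univ, true_and, forall_const, funext_iff, and_iff_right_iff_imp]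
  exact fun h a ha => (h a).trans (he.1 a ha)

theorem mult (hx : Cx π) (ρ : H →* End k V) {τ : Fin 4 → H} (hτ : ∀ i, π (τ i) = cc i) (oτ : ∀ i, Od (τ i)) {ω : k}
    (hω : IsPrimitiveRoot ω 3) : ∃ a b c d e : ℕ, finrank k V = a + 8 * b + 24 * c + 32 * d + 16 * e ∧
      finrank k ((ρ (τ 0)).eigenspace ω) = b + 6 * c + 12 * d + 8 * e ∧
      finrank k ((ρ (τ 0)).eigenspace 1) = a + 6 * b + 12 * c + 8 * d ∧
      finrank k ((ρ (τ 0)).eigenspace ω ⊓ (ρ (τ 3)).eigenspace ω : Submodule k V) = c + 4 * d + 4 * e ∧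
      finrank k ((ρ (τ 0)).eigenspace ω ⊓ (ρ (τ 3)).eigenspace ω ⊓ (ρ (τ 1)).eigenspace 1 : Submodule k V) =
        c + 2 * d := by
  obtain ⟨M, h⟩ := mult0 hx ρ hτ oτ hω
  obtain ⟨c1, c2, c3, c4, c5⟩ := cf_ok
  refine ⟨M 0, M 1, M 2, M 3, M 4, ?_, ?_, ?_, ?_, ?_⟩
  · rw [← finrank_top, h ∅ 0 _ (by simp), c1]; simp [Fin.sum_univ_succ]; ring
  · rw [h {0} 1 _ (by simp), c2]; simp [Fin.sum_univ_succ]; ring
  · rw [h {0} 0 _ (by simp), c3]; simp [Fin.sum_univ_succ]; ring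
  · rw [h {0, 3} 1 _ (by simp), c4]; simp [Fin.sum_univ_succ]; ring
  · rw [h {0, 1, 3} ![1, 0, 0, 1] _ (by simp; tauto), c5]; simp [Fin.sum_univ_succ]

lemma quad_of_nofix {G W : Type*} [Group G] [AddCommGroup W] [Module k W] (σ : G →* End k W) {t : G} (h : t ^ 3 = 1)
    (h0 : ∀ v, σ t v = v → v = 0) (g : G) : σ (g * t * g⁻¹) * σ (g * t * g⁻¹) + σ (g * t * g⁻¹) + 1 = 0 := by
  have h1 : σ t * σ t + σ t + 1 = 0 := LinearMap.ext fun v => h0 _ (by
    rw [← End.mul_apply, mul_add, mul_add, ← pow_three, ← map_pow, h, map_one, mul_one]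
    congr 1; abel)
  have h2 : σ g * σ g⁻¹ = 1 := by rw [← map_mul, mul_inv_cancel, map_one]
  rw [← map_mul, conj_mul, map_mul, map_mul, map_mul, map_mul, map_mul, ← h2]
  calc _ = σ g * (σ t * σ t + σ t + 1) * σ g⁻¹ := by noncomm_ring
    _ = 0 := by rw [h1, mul_zero, zero_mul]

lemma eig_inv (ρ : H →* End k V) {a g : H} (h : g * a = a * g) (μ : k) :
    (ρ a).eigenspace μ ≤ ((ρ a).eigenspace μ).comap (ρ g) := fun w hw => End.mem_eigenspace_iff.2 (by
  rw [← act_mul, ← h, act_mul, End.mem_eigenspace_iff.1 hw, map_smul])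

theorem no12 (h2 : p ≠ 2) (h3 : p ≠ 3) (hR : R27 p ρ) (hx : Cx π)
    (hmin : ∀ P : Subgroup H, (∀ σ, sign σ = 1 → ∃ h ∈ P, π h = σ) → P = ⊤)
    (hk : ∀ z z', π z = 1 → π z' = 1 → z ≠ 1 → z' ≠ 1 → z = z') : False := by
  have k2 : (2 : k) ≠ 0 := cast_ne Nat.prime_two h2
  have k3 : (3 : k) ≠ 0 := cast_ne Nat.prime_three h3
  have : NeZero ((3 : ℕ) : k) := ⟨cast_ne Nat.prime_three h3⟩
  obtain ⟨ω, hω⟩ := HasEnoughRootsOfUnity.exists_primitiveRoot k 3
  choose τ hτ oτ using fun i => hx.exists_od (σ := cc i) (by revert i; decide +kernel) (by decide : Odd 3) (cc_pow i)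
  have t3 : ∀ i, τ i ^ 3 = 1 := fun i => hx.pow_eq (oτ i) (by rw [hτ, cc_pow])
  obtain ⟨a, b, c, d, e, m1, m2, -, m4, m5⟩ := mult hx ρ hτ oτ hω
  rw [hR.dim] at m1
  obtain ⟨g, hg⟩ := hx.surj _ (gn_ok 2).1
  have m6 := hR.g3 h3 (t3 0) (fun e => absurd (e ▸ hτ 0) (by rw [map_one]; decide +kernel)) (g := g)
    (hx.conj_eq (oτ 0) ((oτ 0).pow 2) (by rw [map_pow, hτ, hg]; decide +kernel)) hω
  set U := (ρ (τ 0)).eigenspace ω ⊓ (ρ (τ 3)).eigenspace ω with hU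
  have m7 : 7 ≤ finrank k ((ρ (τ 0)).eigenspace ω) := by
    obtain ⟨H', π', hx', h1, h4⟩ := hx.pull (Function.Embedding.subtype fun x => x ∉ ({0, 1, 2} : Finset (Fin 12)))
    have h5 : ∀ g : H', (g : H) * τ 0 = τ 0 * g := fun g => hx.comm_of (oτ 0) {0, 1, 2} (by rw [hτ]; decide +kernel) g
      fun x hx => by
        rw [h1, viaEmbeddingHom_apply, viaEmbedding_apply_of_notMem]
        rintro ⟨y, rfl⟩; exact y.2 hx
    have h6 : τ 3 ∈ H' := h4 _ fun x hx => by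
      have : x ∈ ({0, 1, 2} : Finset (Fin 12)) := by by_contra hc; exact hx ⟨⟨x, hc⟩, rfl⟩
      rw [hτ]; revert x; decide +kernel
    refine le_trans (by decide +kernel) (sub_bd p hx' (by decide +kernel) ((oτ 3).sub h6)
      (ρ := Representation.subrepresentation (ρ.comp H'.subtype) _ fun g => eig_inv ρ (h5 g) ω) (fun e => ?_) (bd _))
    have : U = ⊥ := eq_bot_iff.2 fun v hv => by
      have h7 : ρ (τ 3) v = v := congrArg Subtype.val (LinearMap.congr_fun e ⟨v, hv.1⟩)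
      by_contra h8
      exact hω.ne_one (by decide) (smul_left_injective k h8
        ((End.mem_eigenspace_iff.1 hv.2).symm.trans (h7.trans (one_smul k v).symm)))
    rw [this, finrank_bot] at m4
    omega
  by_cases hz : ∃ z, π z = 1 ∧ ∃ v ∈ U, v ≠ 0 ∧ ρ z v = -v
  · obtain ⟨z, hz, v, hv, v0, hzv⟩ := hz
    have z1 : z ≠ 1 := by
      rintro rfl
      rw [map_one, End.one_apply, eq_neg_iff_add_eq_zero, ← two_smul k] at hzv
      exact v0 ((smul_eq_zero.1 hzv).resolve_left k2)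
    let σ : H →* End k ((ρ z).eigenspace (-1)) :=
      Representation.subrepresentation ρ _ fun g => eig_inv ρ (hx.cen z hz g).symm (-1)
    obtain ⟨a, b, c, d, e, n1, -, n3, n4, -⟩ := mult hx σ hτ oτ hω
    have hv' : v ∈ (ρ z).eigenspace (-1) := End.mem_eigenspace_iff.2 (by rw [hzv, neg_one_smul])
    have n5 := (Submodule.finrank_eq_zero (S := (σ (τ 0)).eigenspace ω ⊓ (σ (τ 3)).eigenspace ω)).not.2 fun e =>
      v0 (congrArg Subtype.val (e.le (x := ⟨v, hv'⟩) ⟨End.mem_eigenspace_iff.2 (Subtype.ext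
        (End.mem_eigenspace_iff.1 hv.1)), End.mem_eigenspace_iff.2 (Subtype.ext (End.mem_eigenspace_iff.1 hv.2))⟩))
    have n6 := hR.g1 h2 (by rw [sq, hx.sq z hz]) z1
    obtain ⟨rfl, rfl⟩ : c = 0 ∧ d = 0 := by omega
    have n7 : (σ (τ 0)).eigenspace 1 = ⊥ := Submodule.finrank_eq_zero.1 (by omega)
    have h0 : ∀ i : Fin 10, i.succ.succ ≠ 0 ∧ i.succ.succ ≠ 1 := by decide
    have : Nontrivial ((ρ z).eigenspace (-1)) := ⟨⟨v, hv'⟩, 0, fun e => v0 (congrArg Subtype.val e)⟩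
    have hn : ∀ i : Fin 10, [i.succ.succ, 0, 1].Nodup := by decide
    choose g g1 g2 g3 using fun i : Fin 10 => hx.trans3 (by decide) (c := 2) (d := 0) (e := 1) (by decide) (hn i)
    have g4 : ∀ i, π (g i * τ 0 * (g i)⁻¹) = cyc i.succ.succ 0 1 := fun i => by
      rw [map_mul, map_mul, map_inv, hτ, show cc 0 = cyc 2 0 1 by decide +kernel, cyc_conj, g1, g2, g3]
    have := clf_minus k2 k3 (fun i => σ (g i * τ 0 * (g i)⁻¹)) (fun i => quad_of_nofix σ (t3 0)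
      (fun v h => n7.le (End.mem_eigenspace_iff.2 (by rw [h, one_smul]))) _) fun i j hij => by
        rw [← map_mul, ← map_mul, ← sq, ← (hx.ker_mem (by decide) hmin hk (by decide) (h0 i).1
          (h0 i).2 (h0 j).1 (h0 j).2 (by simpa using hij) (g4 i) (g4 j)
          ((oτ 0).conj _) ((oτ 0).conj _) hz).resolve_left z1]
        exact LinearMap.ext fun w => Subtype.ext ((End.mem_eigenspace_iff.1 w.2).trans (neg_one_smul k _))
    omega
  · push Not at hz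
    let C := Subgroup.centralizer ({τ 0, τ 3} : Set H)
    have hC : ∀ g, π g * cc 0 = cc 0 * π g → π g * cc 3 = cc 3 * π g → g ∈ C := by
      rintro g e1 e2 _ (rfl | rfl)
      exacts [(hx.comm (oτ 0) (by rw [hτ, e1])).symm, (hx.comm (oτ 3) (by rw [hτ, e2])).symm]
    let σ : C →* End k U := Representation.subrepresentation (ρ.comp C.subtype) _ fun g v hv =>
      ⟨eig_inv ρ (g.2 _ (Or.inl rfl)).symm ω hv.1, eig_inv ρ (g.2 _ (Or.inr rfl)).symm ω hv.2⟩
    obtain ⟨γ, hγ⟩ := hx.surj (cyc 5 6 7) (by decide +kernel)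
    let t : C := ⟨τ 1, hC _ (by rw [hτ]; decide +kernel) (by rw [hτ]; decide +kernel)⟩
    let s : C := ⟨γ, hC _ (by rw [hγ]; decide +kernel) (by rw [hγ]; decide +kernel)⟩
    have n7 : U ⊓ (ρ (τ 1)).eigenspace 1 = ⊥ := Submodule.finrank_eq_zero.1 (by omega)
    have := clf_plus k2 k3 (fun i : Fin 3 => σ (s ^ (i : ℕ) * t * (s ^ (i : ℕ))⁻¹)) (fun i => quad_of_nofix σ
      (t := t) (Subtype.ext (t3 1)) (fun v h => Subtype.ext (n7.le ⟨v.2, End.mem_eigenspace_iff.2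
        ((congrArg Subtype.val h).trans (one_smul k _).symm)⟩)) _) fun i j hij => by
        rw [← map_mul, ← map_mul]
        generalize hy : (_ : C) * (_ : C) * ((_ : C) * (_ : C)) = y
        have y1 : π y = 1 := by
          simp only [← hy, Subgroup.coe_mul, Subgroup.coe_inv, Subgroup.coe_pow, map_mul, map_inv, map_pow, s, t, hγ, hτ]
          clear hy; revert i j; decide +kernel
        refine LinearMap.ext fun w => ?_
        by_contra h4
        refine hz y y1 _ (w - σ y w).2 (fun e => h4 (sub_eq_zero.1 (Subtype.ext e)).symm) ?_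
        change ((σ y (w - σ y w) : U) : V) = _
        rw [map_sub, ← End.mul_apply, ← map_mul, show y * y = 1 from Subtype.ext (hx.sq _ y1), map_one, End.one_apply]
        simp
    rw [finrank_zero_of_subsingleton] at m4
    omega

end H5.AE
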