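import Mathlib
import Cfsg.Agent.Lib.AltE6.Lie
import Cfsg.Agent.Lib.AltE6.W12
import Cfsg.Agent.Lib.AltE6.Red

/-!
Alternating sections of the groups of type `E₆`.
-/

set_option autoImplicit false
set_option linter.unusedSectionVars false

namespace H5.AE

open Module Equiv Equiv.Perm H82.AG Polynomial Cfsg Cfsg.Lie

universe u

variable {p : ℕ} [Fact p.Prime] {k V W : Type} [Field k] [IsAlgClosed k] [CharP k p] [AddCommGroup V] [Module k V]
  [FiniteDimensional k V] [AddCommGroup W] [Module k W] [FiniteDimensional k W] {H G : Type u} [Group H] [Finite H]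
  [Group G] [Finite G] {ρ : H →* End k V} {σ : G →* End k W}

theorem Md.r27 (hM : Md p σ ρ) (hR : R27 p σ) : R27 p ρ := by
  refine ⟨hM.dim.trans hR.dim, fun r hr hrp t h h1 => ?_, fun l hl hlp h2 E h3 h4 => ?_⟩
  · obtain ⟨s, a1, a2⟩ := hM.elt ((Nat.coprime_primes hr Fact.out).2 hrp) h
    obtain ⟨c, b1, b2, b3⟩ := hR.eig r hr hrp s (orderOf_dvd_iff_pow_eq_one.1 (a1 ▸ orderOf_dvd_of_pow_eq_one h))
      fun e => h1 (orderOf_eq_one_iff.1 (by rw [← a1, e, orderOf_one]))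
    exact ⟨c, b1, b2, by rw [← b3, ← pow_one t, a2, pow_one]⟩
  · obtain ⟨E', a1, a2, a3⟩ := hM.rk hl hlp E h3 h4
    exact a1 ▸ hR.rk l hl hlp h2 E' a2 a3

theorem md_self (σ : G →* End k W) : Md p σ σ := fun A _ => ⟨A.subtype, A.subtype_injective, fun _ => rfl⟩

theorem reduce27 {Ω : Type} [DecidableEq Ω] [Fintype Ω] (h12 : 12 ≤ Fintype.card Ω)
    (fin : ∀ (V : Type) [AddCommGroup V] [Module k V] [FiniteDimensional k V] (H : Type u) [Group H] [Finite H]
      (ρ : H →* End k V) (π : H →* Perm Ω), R27 p ρ → Cx π →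
      (∀ P : Subgroup H, (∀ σ, sign σ = 1 → ∃ h ∈ P, π h = σ) → P = ⊤) →
      (∀ z z', π z = 1 → π z' = 1 → z ≠ 1 → z' ≠ 1 → z = z') → False)
    (hR : R27 p σ) {π : G →* Perm Ω} (ev : ∀ h, sign (π h) = 1) (surj : ∀ σ, sign σ = 1 → ∃ h, π h = σ) : False := by
  refine reduce (p := p) (σ := σ) (by omega) (fun r hr hrp g hg => ?_) ?_ (fun l hl hlp E h1 h2 => ?_)
    (fun V _ _ _ H _ _ ρ π hM _ => fin V H ρ π (hM.r27 hR)) (md_self σ) ev surj
  · obtain ⟨c, a1, -, a3⟩ := hR.eig r hr hrp g (hg ▸ pow_orderOf_eq_one g) fun e => by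
      rw [e, orderOf_one] at hg; exact hr.one_lt.ne hg
    rw [a3, map_one, LinearMap.charpoly_one, hR.dim, ← C_1]
    exact cpT_ne a1
  · rw [hR.dim]
    exact lt_of_lt_of_le (by decide) (Nat.pow_le_pow_right (by decide) (show 10 ≤ _ by omega))
  · refine lt_of_le_of_lt ?_ (Nat.pow_lt_pow_right hl.one_lt (show 9 < _ by omega))
    by_cases h : l = 2
    · subst h
      exact (hR.rk2 hlp.symm E h2).trans (by decide)
    · exact hR.rk l hl hlp h E h1 h2

theorem not_alt12 {F : Type u} [Field F] [Finite F] [CharP F p] (h2 : p ≠ 2) (h3 : p ≠ 3) :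
    ¬ AltSec (chevE6.group F) 12 := fun h => by
  obtain ⟨H, _, _, ρ, π, hR, ev, surj⟩ := exists_r27 p h
  exact reduce27 (by decide) (fun V _ _ _ H _ _ ρ π => no12 h2 h3) hR ev surj

theorem not_alt13 {F : Type u} [Field F] [Finite F] [CharP F p] (hp : p ≠ 11) :
    ¬ AltSec (chevE6.group F) 13 := fun h => by
  obtain ⟨H, _, _, ρ, π, hR, ev, surj⟩ := exists_r27 p h
  refine reduce27 (by decide) (fun V _ _ _ H _ _ ρ π hR hx _ _ => ?_) hR ev surj
  obtain ⟨t, ht, ot⟩ := hx.exists_od (σ := c[0, 1, 2, 3, 4, 5, 6, 7, 8, 9, 10]) (by decide +kernel)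
    (by decide : Odd 11) (by decide +kernel)
  obtain ⟨g, hg⟩ := hx.surj (c[1, 2, 4, 8, 5, 10, 9, 7, 3, 6] * swap 11 12) (by decide +kernel)
  exact hR.g11 hp (hx.pow_eq ot (by rw [ht]; decide +kernel)) (fun e => absurd (e ▸ ht) (by
    rw [map_one]; decide +kernel)) (hx.conj_eq (g := g) ot (ot.pow 2) (by rw [map_pow, ht, hg]; decide +kernel))

theorem alt_le {F : Type u} [Field F] [Finite F] (p : ℕ) [Fact p.Prime] [CharP F p] {r : ℕ}
    (h : AltSec (chevE6.group F) r) : r ≤ 11 + (if p = 2 ∨ p = 3 ∨ p = 5 then 1 else 0) := by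
  by_contra hr
  split_ifs at hr with hp
  · exact not_alt13 (p := p) (by omega) (h.mono (by omega))
  · exact not_alt12 (p := p) (by omega) (by omega) (h.mono (by omega))

end H5.AE
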